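import Mathlib

/-!
Piece P4 of S3797 (helper2's split): "weights".  A 2-group `T` acting like an elementary
abelian group, nontrivially, on an `r`-group `R` (r odd), both normalized by `N`, such that
every index-2 subgroup of `T` has at least `m` `N`-conjugates, forces an elementary abelian
subgroup of `R` of order at least `r ^ m`.
-/

set_option autoImplicit false
set_option linter.style.haveILetI false

namespace Cfsg.Agent.Lib.Helper64.ThWeights

variable {G : Type*} [Group G]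

/-- `F` centralizes `a` and `T \ F` inverts `a`. -/
def Eig (T F : Subgroup G) (a : G) : Prop :=
  (∀ t ∈ F, t * a * t⁻¹ = a) ∧ (∀ t ∈ T, t ∉ F → t * a * t⁻¹ = a⁻¹)

lemma Eig.zpow {T F : Subgroup G} {a : G} (h : Eig T F a) (d : ℤ) : Eig T F (a ^ d) := by
  refine ⟨fun t ht => ?_, fun t ht htF => ?_⟩
  · rw [← conj_zpow, h.1 t ht]
  · rw [← conj_zpow, h.2 t ht htF, inv_zpow]

lemma Eig.pow {T F : Subgroup G} {a : G} (h : Eig T F a) (d : ℕ) : Eig T F (a ^ d) := by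
  have := h.zpow (d : ℤ)
  rwa [zpow_natCast] at this

lemma Eig.conj_or {T F : Subgroup G} {a : G} (h : Eig T F a) {t : G} (ht : t ∈ T) :
    t * a * t⁻¹ = a ∨ t * a * t⁻¹ = a⁻¹ := by
  by_cases htF : t ∈ F
  · exact Or.inl (h.1 t htF)
  · exact Or.inr (h.2 t ht htF)

/-- Independence of eigen-elements for pairwise distinct index-2 "characters". -/
theorem card_closure_ge [Finite G] (r : ℕ) [Fact r.Prime] (hr : r ≠ 2) (T : Subgroup G)
    {I : Type*} [DecidableEq I] (F : I → Subgroup G) (x : I → G)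
    (hFne : ∀ i j, i ≠ j → ∃ t ∈ F i, t ∈ T ∧ t ∉ F j)
    (hx1 : ∀ i, x i ≠ 1) (hxr : ∀ i, x i ^ r = 1)
    (hE : ∀ i, Eig T (F i) (x i))
    (hxc : ∀ i j, x i * x j = x j * x i)
    (S : Finset I) :
    r ^ S.card ≤ Nat.card ↥(Subgroup.closure (x '' (S : Set I))) := by
  have hrp : r.Prime := Fact.out
  suffices h : r ^ S.card ≤ Nat.card ↥(Subgroup.closure (x '' (S : Set I))) ∧
      ∀ j, j ∉ S → ∀ a ∈ Subgroup.closure (x '' (S : Set I)), Eig T (F j) a → a = 1 from h.1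
  induction S using Finset.induction_on with
  | empty =>
    simp only [Finset.coe_empty, Set.image_empty, Subgroup.closure_empty, Finset.card_empty,
      pow_zero]
    refine ⟨?_, fun j _ a ha _ => Subgroup.mem_bot.1 ha⟩
    rw [Subgroup.card_bot]
  | insert i0 S hi0 ih =>
    obtain ⟨ihc, ihQ⟩ := ih
    obtain ⟨A, hAdef⟩ : ∃ A : Subgroup G, A = Subgroup.closure (x '' (S : Set I)) := ⟨_, rfl⟩
    rw [← hAdef] at ihc ihQ
    have himg : x '' ((insert i0 S : Finset I) : Set I) = insert (x i0) (x '' (S : Set I)) := by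
      rw [Finset.coe_insert, Set.image_insert_eq]
    rw [himg]
    -- x i0 commutes with A
    have hcomA : ∀ b ∈ A, x i0 * b = b * x i0 := by
      intro b hb
      have hle : A ≤ Subgroup.centralizer {x i0} := by
        rw [hAdef, Subgroup.closure_le]
        rintro _ ⟨i, _, rfl⟩
        rw [SetLike.mem_coe, Subgroup.mem_centralizer_iff]
        intro y hy
        rw [Set.mem_singleton_iff] at hy
        rw [hy]; exact hxc i0 i
      have := Subgroup.mem_centralizer_iff.1 (hle hb) (x i0) (Set.mem_singleton _)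
      exact this
    have hcomAz : ∀ b ∈ A, ∀ d : ℤ, x i0 ^ d * b = b * x i0 ^ d := by
      intro b hb d
      exact ((Commute.zpow_left (hcomA b hb) d)).eq
    -- T-invariance of A
    have hTA : ∀ t ∈ T, ∀ b ∈ A, t * b * t⁻¹ ∈ A := by
      intro t ht b hb
      rw [hAdef] at hb ⊢
      induction hb using Subgroup.closure_induction with
      | mem y hy =>
        obtain ⟨i, hi, rfl⟩ := hy
        rcases (hE i).conj_or ht with h | h
        · rw [h]; exact Subgroup.subset_closure ⟨i, hi, rfl⟩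
        · rw [h]; exact Subgroup.inv_mem _ (Subgroup.subset_closure ⟨i, hi, rfl⟩)
      | one => simp
      | mul a b _ _ ha hb =>
        have : t * (a * b) * t⁻¹ = (t * a * t⁻¹) * (t * b * t⁻¹) := by group
        rw [this]; exact Subgroup.mul_mem _ ha hb
      | inv a _ ha =>
        have : t * a⁻¹ * t⁻¹ = (t * a * t⁻¹)⁻¹ := by group
        rw [this]; exact Subgroup.inv_mem _ ha
    -- decomposition
    have hdec : ∀ a ∈ Subgroup.closure (insert (x i0) (x '' (S : Set I))),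
        ∃ b ∈ A, ∃ d : ℤ, a = b * x i0 ^ d := by
      intro a ha
      induction ha using Subgroup.closure_induction with
      | mem y hy =>
        rcases hy with rfl | hy
        · exact ⟨1, A.one_mem, 1, by simp⟩
        · exact ⟨y, by rw [hAdef]; exact Subgroup.subset_closure hy, 0, by simp⟩
      | one => exact ⟨1, A.one_mem, 0, by simp⟩
      | mul a b _ _ ha hb =>
        obtain ⟨b1, hb1, d1, rfl⟩ := ha
        obtain ⟨b2, hb2, d2, rfl⟩ := hb
        refine ⟨b1 * b2, A.mul_mem hb1 hb2, d1 + d2, ?_⟩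
        rw [zpow_add]
        calc b1 * x i0 ^ d1 * (b2 * x i0 ^ d2) = b1 * (x i0 ^ d1 * b2) * x i0 ^ d2 := by group
          _ = b1 * (b2 * x i0 ^ d1) * x i0 ^ d2 := by rw [hcomAz b2 hb2 d1]
          _ = b1 * b2 * (x i0 ^ d1 * x i0 ^ d2) := by group
      | inv a _ ha =>
        obtain ⟨b1, hb1, d1, rfl⟩ := ha
        refine ⟨b1⁻¹, A.inv_mem hb1, -d1, ?_⟩
        rw [mul_inv_rev, ← zpow_neg, hcomAz _ (A.inv_mem hb1)]
    -- odd order
    have hodd : ∀ y : G, y * y = 1 → y ^ r = 1 → y = 1 := by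
      intro y h2 hr'
      have h2' : y ^ 2 = 1 := by rw [pow_two]; exact h2
      have hco : Nat.Coprime 2 r := (Nat.coprime_primes Nat.prime_two hrp).2 (Ne.symm hr)
      have := pow_gcd_eq_one.2 ⟨h2', hr'⟩
      rw [Nat.Coprime.gcd_eq_one hco, pow_one] at this
      exact this
    have hQ : ∀ j, j ∉ insert i0 S → ∀ a ∈ Subgroup.closure (insert (x i0) (x '' (S : Set I))),
        Eig T (F j) a → a = 1 := by
      intro j hj a ha hEa
      have hj0 : j ≠ i0 := fun h => hj (by rw [h]; exact Finset.mem_insert_self _ _)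
      have hjS : j ∉ S := fun h => hj (Finset.mem_insert_of_mem h)
      obtain ⟨b, hb, d, rfl⟩ := hdec a ha
      obtain ⟨t, htF, htT, htj⟩ := hFne i0 j (Ne.symm hj0)
      have h1 := hEa.2 t htT htj
      have h2 : t * x i0 ^ d * t⁻¹ = x i0 ^ d := ((hE i0).zpow d).1 t htF
      have h3 : t * (b * x i0 ^ d) * t⁻¹ = (t * b * t⁻¹) * (t * x i0 ^ d * t⁻¹) := by group
      rw [h3, h2] at h1
      -- h1 : t b t⁻¹ * x0^d = (b * x0^d)⁻¹
      have hb' := hTA t htT b hb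
      have hz : x i0 ^ d * x i0 ^ d = (t * b * t⁻¹)⁻¹ * b⁻¹ := by
        have e1 : (b * x i0 ^ d)⁻¹ = b⁻¹ * (x i0 ^ d)⁻¹ := by
          rw [mul_inv_rev, ← zpow_neg, hcomAz _ (A.inv_mem hb), zpow_neg]
        rw [e1] at h1
        calc x i0 ^ d * x i0 ^ d
            = (t * b * t⁻¹)⁻¹ * ((t * b * t⁻¹) * x i0 ^ d) * x i0 ^ d := by group
          _ = (t * b * t⁻¹)⁻¹ * (b⁻¹ * (x i0 ^ d)⁻¹) * x i0 ^ d := by rw [h1]
          _ = (t * b * t⁻¹)⁻¹ * b⁻¹ := by group
      have hzA : x i0 ^ d * x i0 ^ d ∈ A := by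
        rw [hz]; exact A.mul_mem (A.inv_mem hb') (A.inv_mem hb)
      have hzE : Eig T (F i0) (x i0 ^ d * x i0 ^ d) := by
        rw [← zpow_add]; exact (hE i0).zpow _
      have hz1 := ihQ i0 hi0 _ hzA hzE
      have hxd : x i0 ^ d = 1 := by
        apply hodd _ hz1
        rw [← zpow_natCast, ← zpow_mul, mul_comm, zpow_mul, zpow_natCast, hxr i0, one_zpow]
      rw [hxd, mul_one] at hEa ⊢
      exact ihQ j hjS b hb hEa
    refine ⟨?_, hQ⟩
    -- cardinality
    have hord : orderOf (x i0) = r := orderOf_eq_prime (hxr i0) (hx1 i0)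
    have hmemA' : ∀ (b : ↥A) (e : Fin r), (b : G) * x i0 ^ (e : ℕ) ∈
        Subgroup.closure (insert (x i0) (x '' (S : Set I))) := by
      intro b e
      refine Subgroup.mul_mem _ ?_ (Subgroup.pow_mem _ (Subgroup.subset_closure (Set.mem_insert _ _)) _)
      have hle : A ≤ Subgroup.closure (insert (x i0) (x '' (S : Set I))) := by
        rw [hAdef]; exact Subgroup.closure_mono (Set.subset_insert _ _)
      exact hle b.2
    have hinj : Function.Injective (fun z : ↥A × Fin r =>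
        (⟨(z.1 : G) * x i0 ^ (z.2 : ℕ), hmemA' z.1 z.2⟩ :
          ↥(Subgroup.closure (insert (x i0) (x '' (S : Set I)))))) := by
      rintro ⟨b, e⟩ ⟨b', e'⟩ h
      have h' : (b : G) * x i0 ^ (e : ℕ) = (b' : G) * x i0 ^ (e' : ℕ) := congrArg Subtype.val h
      have hz : x i0 ^ ((e : ℤ) - (e' : ℤ)) = (b : G)⁻¹ * (b' : G) := by
        rw [zpow_sub, zpow_natCast, zpow_natCast]
        calc x i0 ^ (e : ℕ) * (x i0 ^ (e' : ℕ))⁻¹
            = (b : G)⁻¹ * ((b : G) * x i0 ^ (e : ℕ)) * (x i0 ^ (e' : ℕ))⁻¹ := by group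
          _ = (b : G)⁻¹ * ((b' : G) * x i0 ^ (e' : ℕ)) * (x i0 ^ (e' : ℕ))⁻¹ := by rw [h']
          _ = (b : G)⁻¹ * (b' : G) := by group
      have hzA : x i0 ^ ((e : ℤ) - (e' : ℤ)) ∈ A := by
        rw [hz]; exact A.mul_mem (A.inv_mem b.2) b'.2
      have hz1 := ihQ i0 hi0 _ hzA ((hE i0).zpow _)
      have hbb : (b : G) = (b' : G) := by
        rw [hz1] at hz
        exact inv_mul_eq_one.1 hz.symm
      have hee : x i0 ^ (e : ℕ) = x i0 ^ (e' : ℕ) := by
        rw [hbb] at h'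
        exact mul_left_cancel h'
      have hee' : (e : ℕ) = (e' : ℕ) := by
        have := pow_eq_pow_iff_modEq.1 hee
        rw [hord] at this
        exact Nat.ModEq.eq_of_lt_of_lt this e.2 e'.2
      have h1 : b = b' := Subtype.ext hbb
      have h2 : e = e' := Fin.ext hee'
      rw [h1, h2]
    have hcard := Nat.card_le_card_of_injective _ hinj
    rw [Nat.card_prod, Nat.card_fin] at hcard
    rw [Finset.card_insert_of_notMem hi0, pow_succ]
    exact (Nat.mul_le_mul_right r ihc).trans hcard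

lemma commutator_ne_self [Finite G] (r : ℕ) [Fact r.Prime] (K : Subgroup G)
    (hK : IsPGroup r K) (hne : K ≠ ⊥) : ⁅K, K⁆ ≠ K := by
  haveI : Group.IsNilpotent ↥K := hK.isNilpotent
  haveI : Nontrivial ↥K := (Subgroup.nontrivial_iff_ne_bot K).2 hne
  have h := Group.IsSolvable.commutator_lt_top_of_nontrivial ↥K
  intro heq
  rw [← Subgroup.map_subtype_commutator] at heq
  have h2 : (commutator ↥K).map K.subtype = (⊤ : Subgroup ↥K).map K.subtype := by
    rw [heq, ← MonoidHom.range_eq_map, Subgroup.range_subtype]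
  exact h.ne (Subgroup.map_injective (Subgroup.subtype_injective K) h2)

/-- Conjugate subgroup `g F g⁻¹`. -/
def conjSub (g : G) (F : Subgroup G) : Subgroup G := F.map (MulAut.conj g).toMonoidHom

lemma mem_conjSub {g s : G} {F : Subgroup G} : s ∈ conjSub g F ↔ g⁻¹ * s * g ∈ F := by
  constructor
  · rintro ⟨f, hf, rfl⟩
    have : g⁻¹ * (MulAut.conj g).toMonoidHom f * g = f := by
      show g⁻¹ * (g * f * g⁻¹) * g = f
      group
    rw [this]; exact hf
  · intro h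
    refine ⟨g⁻¹ * s * g, h, ?_⟩
    show g * (g⁻¹ * s * g) * g⁻¹ = s
    group

lemma card_conjSub (g : G) (F : Subgroup G) : Nat.card ↥(conjSub g F) = Nat.card ↥F :=
  Subgroup.card_map_of_injective (MulAut.conj g).injective

lemma exists_pow_prime (r : ℕ) (x : G) : ∀ k : ℕ, x ^ r ^ k = 1 → x ≠ 1 →
    ∃ n : ℕ, x ^ n ≠ 1 ∧ (x ^ n) ^ r = 1 := by
  intro k
  induction k with
  | zero => intro h hx; rw [pow_zero, pow_one] at h; exact absurd h hx
  | succ k ih =>
    intro h hx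
    by_cases hk : x ^ r ^ k = 1
    · exact ih hk hx
    · exact ⟨r ^ k, hk, by rw [← pow_mul, ← pow_succ]; exact h⟩

theorem exists_elemAb {G : Type*} [Group G] [Finite G] (r : ℕ) [Fact r.Prime] (hr : r ≠ 2)
    (R T N : Subgroup G) (hR : IsPGroup r R) (hT : IsPGroup 2 T)
    (hTR : T ≤ Subgroup.normalizer (R : Set G)) (hNR : N ≤ Subgroup.normalizer (R : Set G))
    (hNT : N ≤ Subgroup.normalizer (T : Set G))
    (hel : ∀ s ∈ T, ∀ t ∈ T, ∀ x ∈ R, (s * t) * x * (s * t)⁻¹ = (t * s) * x * (t * s)⁻¹)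
    (hsq : ∀ t ∈ T, ∀ x ∈ R, t ^ 2 * x = x * t ^ 2)
    (hnt : ∃ t ∈ T, ∃ x ∈ R, t * x ≠ x * t)
    (m : ℕ) (hm : ∀ T' : Subgroup G, T' ≤ T → T'.relIndex T = 2 →
      m ≤ (N ⊓ Subgroup.normalizer (T' : Set G)).relIndex N) :
    ∃ A : Subgroup G, A ≤ R ∧ (∀ a ∈ A, ∀ b ∈ A, a * b = b * a) ∧ (∀ a ∈ A, a ^ r = 1) ∧
      r ^ m ≤ Nat.card A := by
  classical
  have hrp : r.Prime := Fact.out
  have hTRc : ∀ t ∈ T, ∀ x ∈ R, t * x * t⁻¹ ∈ R :=
    fun t ht x hx => (Subgroup.mem_normalizer_iff.1 (hTR ht) x).1 hx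
  have hNRc : ∀ g ∈ N, ∀ x ∈ R, g * x * g⁻¹ ∈ R :=
    fun g hg x hx => (Subgroup.mem_normalizer_iff.1 (hNR hg) x).1 hx
  have hNTc : ∀ g ∈ N, ∀ t ∈ T, g * t * g⁻¹ ∈ T :=
    fun g hg t ht => (Subgroup.mem_normalizer_iff.1 (hNT hg) t).1 ht
  have hcomm : ∀ s ∈ T, ∀ t ∈ T, ∀ x ∈ R,
      s * (t * x * t⁻¹) * s⁻¹ = t * (s * x * s⁻¹) * t⁻¹ := by
    intro s hs t ht x hx
    have := hel s hs t ht x hx
    calc s * (t * x * t⁻¹) * s⁻¹ = (s * t) * x * (s * t)⁻¹ := by group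
      _ = (t * s) * x * (t * s)⁻¹ := this
      _ = t * (s * x * s⁻¹) * t⁻¹ := by group
  have hinvol : ∀ t ∈ T, ∀ x ∈ R, t * (t * x * t⁻¹) * t⁻¹ = x := by
    intro t ht x hx
    have h2 : t * t * x = x * (t * t) := by
      have := hsq t ht x hx
      rw [pow_two] at this; exact this
    calc t * (t * x * t⁻¹) * t⁻¹ = (t * t * x) * t⁻¹ * t⁻¹ := by group
      _ = (x * (t * t)) * t⁻¹ * t⁻¹ := by rw [h2]
      _ = x := by group
  have hodd : ∀ z ∈ R, z * z = 1 → z = 1 := by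
    intro z hz h2
    obtain ⟨k, hk⟩ := hR ⟨z, hz⟩
    have hk' : z ^ r ^ k = 1 := by
      have := congrArg Subtype.val hk
      rwa [Subgroup.coe_pow] at this
    have h2' : z ^ 2 = 1 := by rw [pow_two]; exact h2
    have hco : Nat.Coprime 2 (r ^ k) :=
      Nat.Coprime.pow_right k ((Nat.coprime_primes Nat.prime_two hrp).2 (Ne.symm hr))
    have := pow_gcd_eq_one.2 ⟨h2', hk'⟩
    rw [Nat.Coprime.gcd_eq_one hco, pow_one] at this
    exact this
  -- (i) minimal R*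
  obtain ⟨Rs, hRsmem, hRsmin⟩ := Set.exists_min_image
    {K : Subgroup G | K ≤ R ∧ (∀ t ∈ T, ∀ k ∈ K, t * k * t⁻¹ ∈ K) ∧
      (∀ g ∈ N, ∀ k ∈ K, g * k * g⁻¹ ∈ K) ∧ ¬ (∀ t ∈ T, ∀ k ∈ K, t * k = k * t)}
    (fun K => Nat.card ↥K) (Set.toFinite _) ⟨R, le_rfl, hTRc, hNRc, by
      obtain ⟨t, ht, x, hx, hne⟩ := hnt
      exact fun h => hne (h t ht x hx)⟩
  obtain ⟨hRsR, hRsT, hRsN, hRsnc⟩ := hRsmem
  have hprop : ∀ K : Subgroup G, K ≤ Rs → K ≠ Rs → (∀ t ∈ T, ∀ k ∈ K, t * k * t⁻¹ ∈ K) →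
      (∀ g ∈ N, ∀ k ∈ K, g * k * g⁻¹ ∈ K) → ∀ t ∈ T, ∀ k ∈ K, t * k = k * t := by
    intro K hK hne hKT hKN
    by_contra hc
    have := hRsmin K ⟨hK.trans hRsR, hKT, hKN, hc⟩
    exact hne (Subgroup.eq_of_le_of_card_ge hK this)
  have hRs1 : Rs ≠ ⊥ := by
    rintro rfl
    apply hRsnc
    intro t ht k hk
    rw [Subgroup.mem_bot.1 hk, mul_one, one_mul]
  have hDle : ⁅Rs, Rs⁆ ≤ Rs := Subgroup.commutator_le.2 (fun a ha b hb => by
    rw [commutatorElement_def]
    exact Rs.mul_mem (Rs.mul_mem (Rs.mul_mem ha hb) (Rs.inv_mem ha)) (Rs.inv_mem hb))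
  have hDinv : ∀ (H : Subgroup G), (∀ g ∈ H, ∀ k ∈ Rs, g * k * g⁻¹ ∈ Rs) →
      ∀ g ∈ H, ∀ k ∈ ⁅Rs, Rs⁆, g * k * g⁻¹ ∈ ⁅Rs, Rs⁆ := by
    intro H hH g hg k hk
    rw [Subgroup.commutator_def] at hk ⊢
    induction hk using Subgroup.closure_induction with
    | mem y hy =>
      obtain ⟨a, ha, b, hb, rfl⟩ := hy
      apply Subgroup.subset_closure
      refine ⟨g * a * g⁻¹, hH g hg a ha, g * b * g⁻¹, hH g hg b hb, ?_⟩
      rw [commutatorElement_def, commutatorElement_def]; group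
    | one => simp
    | mul a b _ _ ha hb =>
      have : g * (a * b) * g⁻¹ = (g * a * g⁻¹) * (g * b * g⁻¹) := by group
      rw [this]; exact Subgroup.mul_mem _ ha hb
    | inv a _ ha =>
      have : g * a⁻¹ * g⁻¹ = (g * a * g⁻¹)⁻¹ := by group
      rw [this]; exact Subgroup.inv_mem _ ha
  have hDT : ∀ t ∈ T, ∀ k ∈ ⁅Rs, Rs⁆, t * k = k * t :=
    hprop ⁅Rs, Rs⁆ hDle (commutator_ne_self r Rs (hR.to_le hRsR) hRs1) (hDinv T hRsT)
      (hDinv N hRsN)
  have hDfix : ∀ t ∈ T, ∀ a ∈ Rs, ∀ b ∈ Rs,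
      t * (a * b * a⁻¹ * b⁻¹) * t⁻¹ = a * b * a⁻¹ * b⁻¹ := by
    intro t ht a ha b hb
    have hmem : a * b * a⁻¹ * b⁻¹ ∈ ⁅Rs, Rs⁆ := by
      have := Subgroup.commutator_mem_commutator ha hb
      rwa [commutatorElement_def] at this
    have := hDT t ht _ hmem
    rw [this]; group
  -- (ii) maximal F
  obtain ⟨F, hFmem, hFmax⟩ := Set.exists_max_image
    {F : Subgroup G | F ≤ T ∧ (∀ t ∈ T, (∀ k ∈ Rs, t * k = k * t) → t ∈ F) ∧
      ¬ (∀ t ∈ T, ∀ k ∈ Rs ⊓ Subgroup.centralizer (F : Set G), t * k = k * t)}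
    (fun F => Nat.card ↥F) (Set.toFinite _)
    ⟨T ⊓ Subgroup.centralizer (Rs : Set G), inf_le_left, by
      intro t ht h
      refine Subgroup.mem_inf.2 ⟨ht, ?_⟩
      rw [Subgroup.mem_centralizer_iff]
      intro k hk
      exact (h k hk).symm, by
      intro h
      apply hRsnc
      intro t ht k hk
      apply h t ht k
      refine Subgroup.mem_inf.2 ⟨hk, ?_⟩
      rw [Subgroup.mem_centralizer_iff]
      intro f hf
      have hf2 := (Subgroup.mem_inf.1 hf).2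
      rw [Subgroup.mem_centralizer_iff] at hf2
      exact (hf2 k hk).symm⟩
  obtain ⟨hFT, hFC, hFnc⟩ := hFmem
  obtain ⟨B, hBdef⟩ : ∃ B : Subgroup G, B = Rs ⊓ Subgroup.centralizer (F : Set G) := ⟨_, rfl⟩
  rw [← hBdef] at hFnc
  have hBmem : ∀ k, k ∈ B ↔ k ∈ Rs ∧ ∀ f ∈ F, f * k = k * f := by
    intro k
    rw [hBdef, Subgroup.mem_inf, Subgroup.mem_centralizer_iff]
    rfl
  have hBT : ∀ t ∈ T, ∀ k ∈ B, t * k * t⁻¹ ∈ B := by
    intro t ht k hk
    obtain ⟨hk1, hk2⟩ := (hBmem k).1 hk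
    refine (hBmem _).2 ⟨hRsT t ht k hk1, fun f hf => ?_⟩
    have h1 := hcomm f (hFT hf) t ht k (hRsR hk1)
    have h2 : f * k * f⁻¹ = k := by rw [hk2 f hf]; group
    rw [h2] at h1
    calc f * (t * k * t⁻¹) = (f * (t * k * t⁻¹) * f⁻¹) * f := by group
      _ = (t * k * t⁻¹) * f := by rw [h1]
  have hex : ∃ t0 ∈ T, ∃ y ∈ B, t0 * y ≠ y * t0 := by
    by_contra hcon
    push Not at hcon
    exact hFnc hcon
  obtain ⟨t0, ht0, y, hyB, hy⟩ := hex
  obtain ⟨x, hxdef⟩ : ∃ x : G, x = y⁻¹ * (t0 * y * t0⁻¹) := ⟨_, rfl⟩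
  have hxB : x ∈ B := by rw [hxdef]; exact B.mul_mem (B.inv_mem hyB) (hBT t0 ht0 y hyB)
  have hxRs : x ∈ Rs := ((hBmem x).1 hxB).1
  have hxR : x ∈ R := hRsR hxRs
  have hxF : ∀ f ∈ F, f * x * f⁻¹ = x := by
    intro f hf
    rw [((hBmem x).1 hxB).2 f hf]; group
  have hx1 : x ≠ 1 := by
    intro h
    apply hy
    rw [hxdef] at h
    have : t0 * y * t0⁻¹ = y := by
      calc t0 * y * t0⁻¹ = y * (y⁻¹ * (t0 * y * t0⁻¹)) := by group
        _ = y := by rw [h, mul_one]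
    calc t0 * y = (t0 * y * t0⁻¹) * t0 := by group
      _ = y * t0 := by rw [this]
  have hyR : y ∈ R := hRsR ((hBmem y).1 hyB).1
  have hx0 : t0 * x * t0⁻¹ = x⁻¹ := by
    rw [hxdef]
    have h1 := hinvol t0 ht0 y hyR
    calc t0 * (y⁻¹ * (t0 * y * t0⁻¹)) * t0⁻¹
        = (t0 * y * t0⁻¹)⁻¹ * (t0 * (t0 * y * t0⁻¹) * t0⁻¹) := by group
      _ = (t0 * y * t0⁻¹)⁻¹ * y := by rw [h1]
      _ = (y⁻¹ * (t0 * y * t0⁻¹))⁻¹ := by group
  have hxx : x * x ≠ 1 := fun h => hx1 (hodd x hxR h)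
  -- (iii)
  have hinvx : ∀ t ∈ T, t ∉ F → t * x * t⁻¹ = x⁻¹ := by
    intro t ht htF
    obtain ⟨x', hx'def⟩ : ∃ x' : G, x' = t * x * t⁻¹ := ⟨_, rfl⟩
    rw [← hx'def]
    have hx'B : x' ∈ B := by rw [hx'def]; exact hBT t ht x hxB
    have hx'Rs : x' ∈ Rs := ((hBmem x').1 hx'B).1
    have htx' : t * x' * t⁻¹ = x := by rw [hx'def]; exact hinvol t ht x hxR
    have hcR : x * x' * x⁻¹ * x'⁻¹ ∈ R :=
      hRsR (Rs.mul_mem (Rs.mul_mem (Rs.mul_mem hxRs hx'Rs) (Rs.inv_mem hxRs)) (Rs.inv_mem hx'Rs))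
    have hc1 : x * x' * x⁻¹ * x'⁻¹ = 1 := by
      have h1 := hDfix t ht x hxRs x' hx'Rs
      have h2 : t * (x * x' * x⁻¹ * x'⁻¹) * t⁻¹ = x' * x * x'⁻¹ * x⁻¹ := by
        calc t * (x * x' * x⁻¹ * x'⁻¹) * t⁻¹
            = (t * x * t⁻¹) * (t * x' * t⁻¹) * (t * x * t⁻¹)⁻¹ * (t * x' * t⁻¹)⁻¹ := by group
          _ = x' * x * x'⁻¹ * x⁻¹ := by rw [htx', ← hx'def]
      rw [h2] at h1
      apply hodd _ hcR
      calc x * x' * x⁻¹ * x'⁻¹ * (x * x' * x⁻¹ * x'⁻¹)
          = x * x' * x⁻¹ * x'⁻¹ * (x' * x * x'⁻¹ * x⁻¹) := by rw [h1]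
        _ = 1 := by group
    have hxx' : x * x' = x' * x := by
      calc x * x' = (x * x' * x⁻¹ * x'⁻¹) * x' * x := by group
        _ = x' * x := by rw [hc1, one_mul]
    -- the larger subgroup
    have hF'T : F ⊔ Subgroup.zpowers t ≤ T := sup_le hFT ((Subgroup.zpowers_le).2 ht)
    have hF'cent : ∀ s ∈ T, ∀ k ∈ Rs ⊓ Subgroup.centralizer ((F ⊔ Subgroup.zpowers t : Subgroup G) : Set G),
        s * k = k * s := by
      by_contra hcon
      have hle := hFmax (F ⊔ Subgroup.zpowers t)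
        ⟨hF'T, fun s hs h => (le_sup_left : F ≤ F ⊔ Subgroup.zpowers t) (hFC s hs h), hcon⟩
      have heq : F = F ⊔ Subgroup.zpowers t := Subgroup.eq_of_le_of_card_ge le_sup_left hle
      apply htF
      rw [heq]
      exact (le_sup_right : Subgroup.zpowers t ≤ F ⊔ Subgroup.zpowers t) (Subgroup.mem_zpowers t)
    have hy1mem : x * x' ∈ Rs ⊓ Subgroup.centralizer ((F ⊔ Subgroup.zpowers t : Subgroup G) : Set G) := by
      refine Subgroup.mem_inf.2 ⟨Rs.mul_mem hxRs hx'Rs, ?_⟩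
      have hle : F ⊔ Subgroup.zpowers t ≤ Subgroup.centralizer {x * x'} := by
        refine sup_le ?_ ((Subgroup.zpowers_le).2 ?_)
        · intro f hf
          rw [Subgroup.mem_centralizer_iff]
          intro z hz
          rw [Set.mem_singleton_iff] at hz
          rw [hz]
          have e1 := ((hBmem x).1 hxB).2 f hf
          have e2 := ((hBmem x').1 hx'B).2 f hf
          calc x * x' * f = x * (x' * f) := by group
            _ = x * (f * x') := by rw [e2]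
            _ = (x * f) * x' := by group
            _ = (f * x) * x' := by rw [e1]
            _ = f * (x * x') := by group
        · rw [Subgroup.mem_centralizer_iff]
          intro z hz
          rw [Set.mem_singleton_iff] at hz
          rw [hz]
          have e : t * (x * x') * t⁻¹ = x * x' := by
            calc t * (x * x') * t⁻¹ = (t * x * t⁻¹) * (t * x' * t⁻¹) := by group
              _ = x' * x := by rw [htx', ← hx'def]
              _ = x * x' := hxx'.symm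
          calc x * x' * t = (t * (x * x') * t⁻¹) * t := by rw [e]
            _ = t * (x * x') := by group
      rw [Subgroup.mem_centralizer_iff]
      intro f hf
      have := Subgroup.mem_centralizer_iff.1 (hle hf) (x * x') (Set.mem_singleton _)
      exact this.symm
    have h0 := hF'cent t0 ht0 _ hy1mem
    have ht0x' : t0 * x' * t0⁻¹ = x'⁻¹ := by
      rw [hx'def]
      have := hcomm t0 ht0 t ht x hxR
      rw [this, hx0]; group
    have hy1 : x * x' * (x * x') = 1 := by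
      have e : t0 * (x * x') * t0⁻¹ = x⁻¹ * x'⁻¹ := by
        calc t0 * (x * x') * t0⁻¹ = (t0 * x * t0⁻¹) * (t0 * x' * t0⁻¹) := by group
          _ = x⁻¹ * x'⁻¹ := by rw [hx0, ht0x']
      have e2 : t0 * (x * x') * t0⁻¹ = x * x' := by rw [h0]; group
      rw [e2] at e
      calc x * x' * (x * x') = x * x' * (x⁻¹ * x'⁻¹) := by rw [← e]
        _ = x * x' * x⁻¹ * x'⁻¹ := by group
        _ = 1 := hc1
    have hy1' := hodd _ (hRsR (Rs.mul_mem hxRs hx'Rs)) hy1
    exact eq_inv_of_mul_eq_one_right hy1'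
  have ht0F : t0 ∉ F := by
    intro h
    have := hxF t0 h
    rw [hx0] at this
    apply hxx
    calc x * x = x * x⁻¹ := by rw [this]
      _ = 1 := mul_inv_cancel x
  -- (iv) index 2
  have hidx : F.relIndex T = 2 := by
    rw [Subgroup.relIndex_eq_two_iff]
    refine ⟨t0, ht0, fun b hb => ?_⟩
    by_cases hbF : b ∈ F
    · refine Or.inr ⟨hbF, fun h => ht0F ?_⟩
      have : t0 = b⁻¹ * (b * t0) := by group
      rw [this]; exact F.mul_mem (F.inv_mem hbF) h
    · refine Or.inl ⟨?_, hbF⟩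
      by_contra hbt
      have h1 := hinvx (b * t0) (T.mul_mem hb ht0) hbt
      have h2 := hinvx b hb hbF
      have h3 : b * t0 * x * (b * t0)⁻¹ = x := by
        calc b * t0 * x * (b * t0)⁻¹ = b * (t0 * x * t0⁻¹) * b⁻¹ := by group
          _ = b * x⁻¹ * b⁻¹ := by rw [hx0]
          _ = (b * x * b⁻¹)⁻¹ := by group
          _ = x := by rw [h2, inv_inv]
      rw [h3] at h1
      apply hxx
      calc x * x = x * x⁻¹ := by rw [← h1]
        _ = 1 := mul_inv_cancel x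
  -- element of order r
  obtain ⟨k, hk⟩ := hR ⟨x, hxR⟩
  have hk' : x ^ r ^ k = 1 := by
    have := congrArg Subtype.val hk
    rwa [Subgroup.coe_pow] at this
  obtain ⟨n, hn1, hnr⟩ := exists_pow_prime r x k hk' hx1
  have hEx : Eig T F (x ^ n) := Eig.pow ⟨hxF, hinvx⟩ n
  have hxnRs : x ^ n ∈ Rs := Rs.pow_mem hxRs n
  -- the index type
  obtain ⟨H, hHdef⟩ : ∃ H : Subgroup ↥N,
      H = (N ⊓ Subgroup.normalizer (F : Set G)).subgroupOf N := ⟨_, rfl⟩
  have hHmem : ∀ z : ↥N, z ∈ H ↔ (z : G) ∈ N ⊓ Subgroup.normalizer (F : Set G) := by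
    intro z; rw [hHdef, Subgroup.mem_subgroupOf]
  have hcardI : m ≤ Nat.card (↥N ⧸ H) := by
    have := hm F hFT hidx
    rw [hHdef]; exact this
  obtain ⟨gq, hgqdef⟩ : ∃ gq : ↥N ⧸ H → G, gq = fun q => ((q.out : ↥N) : G) := ⟨_, rfl⟩
  have hgqN : ∀ q, gq q ∈ N := by intro q; rw [hgqdef]; exact (q.out : ↥N).2
  have hgqinvN : ∀ q, (gq q)⁻¹ ∈ N := fun q => N.inv_mem (hgqN q)
  have hEq : ∀ q, Eig T (conjSub (gq q) F) (gq q * x ^ n * (gq q)⁻¹) := by
    intro q
    refine ⟨fun s hs => ?_, fun s hs hsF => ?_⟩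
    · have h1 := hEx.1 _ (mem_conjSub.1 hs)
      calc s * (gq q * x ^ n * (gq q)⁻¹) * s⁻¹
          = gq q * ((gq q)⁻¹ * s * gq q * x ^ n * ((gq q)⁻¹ * s * gq q)⁻¹) * (gq q)⁻¹ := by group
        _ = gq q * x ^ n * (gq q)⁻¹ := by rw [h1]
    · have hT' : (gq q)⁻¹ * s * gq q ∈ T := by
        have := hNTc _ (hgqinvN q) s hs
        rwa [inv_inv] at this
      have h1 := hEx.2 _ hT' (fun h => hsF (mem_conjSub.2 h))
      calc s * (gq q * x ^ n * (gq q)⁻¹) * s⁻¹
          = gq q * ((gq q)⁻¹ * s * gq q * x ^ n * ((gq q)⁻¹ * s * gq q)⁻¹) * (gq q)⁻¹ := by group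
        _ = gq q * (x ^ n)⁻¹ * (gq q)⁻¹ := by rw [h1]
        _ = (gq q * x ^ n * (gq q)⁻¹)⁻¹ := by group
  have hxqRs : ∀ q, gq q * x ^ n * (gq q)⁻¹ ∈ Rs := fun q => hRsN _ (hgqN q) _ hxnRs
  have hxq1 : ∀ q, gq q * x ^ n * (gq q)⁻¹ ≠ 1 := by
    intro q h
    apply hn1
    calc x ^ n = (gq q)⁻¹ * (gq q * x ^ n * (gq q)⁻¹) * gq q := by group
      _ = 1 := by rw [h]; group
  have hxqr : ∀ q, (gq q * x ^ n * (gq q)⁻¹) ^ r = 1 := by
    intro q
    rw [conj_pow, hnr]; group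
  have hFqT : ∀ q, conjSub (gq q) F ≤ T := by
    intro q s hs
    have h1 := hFT (mem_conjSub.1 hs)
    have := hNTc _ (hgqN q) _ h1
    have e : gq q * ((gq q)⁻¹ * s * gq q) * (gq q)⁻¹ = s := by group
    rwa [e] at this
  have hFqne : ∀ q q', q ≠ q' → conjSub (gq q) F ≠ conjSub (gq q') F := by
    intro q q' hne heq
    apply hne
    have hmemN : (gq q)⁻¹ * gq q' ∈ N ⊓ Subgroup.normalizer (F : Set G) := by
      refine Subgroup.mem_inf.2 ⟨N.mul_mem (hgqinvN q) (hgqN q'), ?_⟩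
      rw [Subgroup.mem_normalizer_iff]
      intro h
      have h1 : gq q' * h * (gq q')⁻¹ ∈ conjSub (gq q') F ↔ h ∈ F := by
        rw [mem_conjSub]
        have e : (gq q')⁻¹ * (gq q' * h * (gq q')⁻¹) * gq q' = h := by group
        rw [e]
      have h2 : gq q' * h * (gq q')⁻¹ ∈ conjSub (gq q) F ↔
          (gq q)⁻¹ * gq q' * h * ((gq q)⁻¹ * gq q')⁻¹ ∈ F := by
        rw [mem_conjSub]
        have e : (gq q)⁻¹ * (gq q' * h * (gq q')⁻¹) * gq q =
            (gq q)⁻¹ * gq q' * h * ((gq q)⁻¹ * gq q')⁻¹ := by group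
        rw [e]
      rw [← h1, ← heq, h2]
    have h1 : ((q.out : ↥N) : ↥N ⧸ H) = (q'.out : ↥N) := by
      rw [QuotientGroup.eq, hHmem]
      rw [hgqdef] at hmemN
      exact hmemN
    rw [QuotientGroup.out_eq', QuotientGroup.out_eq'] at h1
    exact h1
  have hFne : ∀ q q', q ≠ q' → ∃ t ∈ conjSub (gq q) F, t ∈ T ∧ t ∉ conjSub (gq q') F := by
    intro q q' hne
    have hnle : ¬ conjSub (gq q) F ≤ conjSub (gq q') F := by
      intro hle
      apply hFqne q q' hne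
      refine Subgroup.eq_of_le_of_card_ge hle ?_
      rw [card_conjSub, card_conjSub]
    obtain ⟨t, ht, htn⟩ := SetLike.not_le_iff_exists.1 hnle
    exact ⟨t, ht, hFqT q ht, htn⟩
  have hxc : ∀ q q', (gq q * x ^ n * (gq q)⁻¹) * (gq q' * x ^ n * (gq q')⁻¹) =
      (gq q' * x ^ n * (gq q')⁻¹) * (gq q * x ^ n * (gq q)⁻¹) := by
    intro q q'
    by_cases hqq : q = q'
    · rw [hqq]
    obtain ⟨a, hadef⟩ : ∃ a : G, a = gq q * x ^ n * (gq q)⁻¹ := ⟨_, rfl⟩
    obtain ⟨b, hbdef⟩ : ∃ b : G, b = gq q' * x ^ n * (gq q')⁻¹ := ⟨_, rfl⟩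
    rw [← hadef, ← hbdef]
    have haRs : a ∈ Rs := by rw [hadef]; exact hxqRs q
    have hbRs : b ∈ Rs := by rw [hbdef]; exact hxqRs q'
    obtain ⟨t, htF, htT, htn⟩ := hFne q' q (Ne.symm hqq)
    have hta : t * a * t⁻¹ = a⁻¹ := by rw [hadef]; exact (hEq q).2 t htT htn
    have htb : t * b * t⁻¹ = b := by rw [hbdef]; exact (hEq q').1 t htF
    have h1 := hDfix t htT a haRs b hbRs
    have h2 : t * (a * b * a⁻¹ * b⁻¹) * t⁻¹ = a⁻¹ * b * a * b⁻¹ := by
      calc t * (a * b * a⁻¹ * b⁻¹) * t⁻¹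
          = (t * a * t⁻¹) * (t * b * t⁻¹) * (t * a * t⁻¹)⁻¹ * (t * b * t⁻¹)⁻¹ := by group
        _ = a⁻¹ * b * a * b⁻¹ := by rw [hta, htb, inv_inv]
    rw [h2] at h1
    have h3 : (a * a) * b = b * (a * a) := by
      calc (a * a) * b = a * (a * b * a⁻¹ * b⁻¹) * b * a := by group
        _ = a * (a⁻¹ * b * a * b⁻¹) * b * a := by rw [h1]
        _ = b * (a * a) := by group
    have har : a ^ r = 1 := by rw [hadef]; exact hxqr q
    obtain ⟨j, hj⟩ : ∃ j, r = 2 * j + 1 := by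
      rcases Nat.Prime.eq_two_or_odd hrp with h | h
      · exact absurd h hr
      · exact ⟨r / 2, by omega⟩
    have h4 : (a * a) ^ (j + 1) = a := by
      have : (a * a) ^ (j + 1) = a ^ r * a := by
        rw [← pow_two, ← pow_mul, hj, ← pow_succ]
        congr 1
      rw [this, har, one_mul]
    have h5 : Commute ((a * a) ^ (j + 1)) b := Commute.pow_left h3 (j + 1)
    rw [h4] at h5
    exact h5.eq
  -- (vi) the subgroup A
  haveI : Fintype (↥N ⧸ H) := Fintype.ofFinite _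
  have hcard := card_closure_ge r hr T (fun q => conjSub (gq q) F)
    (fun q => gq q * x ^ n * (gq q)⁻¹) hFne hxq1 hxqr hEq hxc Finset.univ
  rw [Finset.card_univ, ← Nat.card_eq_fintype_card, Finset.coe_univ, Set.image_univ] at hcard
  obtain ⟨X, hXdef⟩ : ∃ X : Set G, X = Set.range (fun q => gq q * x ^ n * (gq q)⁻¹) := ⟨_, rfl⟩
  rw [← hXdef] at hcard
  have hXc : ∀ a ∈ X, ∀ b ∈ X, a * b = b * a := by
    rw [hXdef]
    rintro _ ⟨q, rfl⟩ _ ⟨q', rfl⟩
    exact hxc q q'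
  have hAc1 : ∀ s ∈ X, ∀ b ∈ Subgroup.closure X, s * b = b * s := by
    intro s hs b hb
    have hle : Subgroup.closure X ≤ Subgroup.centralizer {s} := by
      rw [Subgroup.closure_le]
      intro z hz
      rw [SetLike.mem_coe, Subgroup.mem_centralizer_iff]
      intro w hw
      rw [Set.mem_singleton_iff] at hw
      rw [hw]; exact hXc s hs z hz
    exact Subgroup.mem_centralizer_iff.1 (hle hb) s (Set.mem_singleton _)
  have hAc : ∀ a ∈ Subgroup.closure X, ∀ b ∈ Subgroup.closure X, a * b = b * a := by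
    intro a ha b hb
    have hle : Subgroup.closure X ≤ Subgroup.centralizer {b} := by
      rw [Subgroup.closure_le]
      intro z hz
      rw [SetLike.mem_coe, Subgroup.mem_centralizer_iff]
      intro w hw
      rw [Set.mem_singleton_iff] at hw
      rw [hw]; exact (hAc1 z hz b hb).symm
    exact (Subgroup.mem_centralizer_iff.1 (hle ha) b (Set.mem_singleton _)).symm
  refine ⟨Subgroup.closure X, ?_, hAc, ?_, ?_⟩
  · rw [Subgroup.closure_le, hXdef]
    rintro _ ⟨q, rfl⟩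
    exact hRsR (hxqRs q)
  · intro a ha
    induction ha using Subgroup.closure_induction with
    | mem y hy =>
      rw [hXdef] at hy
      obtain ⟨q, rfl⟩ := hy
      exact hxqr q
    | one => exact one_pow r
    | mul a b ha hb iha ihb =>
      have hc : Commute a b := hAc a ha b hb
      rw [hc.mul_pow, iha, ihb, one_mul]
    | inv a _ iha => rw [inv_pow, iha, inv_one]
  · exact (Nat.pow_le_pow_right hrp.pos hcardI).trans hcard

end Cfsg.Agent.Lib.Helper64.ThWeights
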