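import Mathlib
import Cfsg.Agent.Lib.Helper80.BTStmt
import Cfsg.Agent.Lib.Helper80.Burnside
import Cfsg.Agent.Lib.CT.Orth
import Cfsg.Agent.Lib.CT.Kernel
import Cfsg.Agent.Lib.CT.Ops

/-! Piece VAN of S0997 (helper64, second seat): an irreducible character of degree `2^a > 1` of
a nonabelian simple group vanishes at the elements `z ≠ 1` of odd class size. -/

set_option autoImplicit false

namespace Cfsg.Agent.Lib.Helper64.BTVAN

open Cfsg Cfsg.Agent.Lib.Helper80.BTStmt
open Cfsg.Agent.Lib.Helper80.Integrality Cfsg.Agent.Lib.Helper80.Burnside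
open Cfsg.Agent.Lib.CT.Wedderburn Cfsg.Agent.Lib.CT.Orth Cfsg.Agent.Lib.CT.Kernel
open scoped ComplexConjugate

universe u

theorem main : VAN.{u} := by
  intro G _ _ hsimple hncyc χ a ha hdeg g hg hodd
  have := hsimple
  have := Fintype.ofFinite G
  have hnc : ¬ ∀ a b : G, a * b = b * a := by
    intro hc
    let _ : CommGroup G := { ‹Group G› with mul_comm := hc }
    have hpr : (Nat.card G).Prime := IsSimpleGroup.prime_card
    have : Fact (Nat.card G).Prime := ⟨hpr⟩
    exact hncyc (isCyclic_of_prime_card rfl)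
  have hchar : IsCharacter G (χ : G → ℂ) := isCharacter_of_irr χ.2
  have hcop : Nat.Coprime (charDegree (χ : G → ℂ)) (Subgroup.centralizer ({g} : Set G)).index := by
    rw [hdeg]
    exact Nat.Coprime.pow_left a (Nat.coprime_two_left.mpr hodd)
  rcases irr_eq_zero_or_norm_eq_of_coprime χ g hcop with h0 | hnorm
  · exact h0
  exfalso
  obtain ⟨Z, hZn, hZ⟩ := exists_normal_center hchar
  obtain ⟨K, hKn, hK⟩ := exists_normal_ker hchar
  have hZtop : Z = ⊤ := by
    rcases hZn.eq_bot_or_eq_top with h | h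
    · exact absurd ((Subgroup.mem_bot).1 (h ▸ (hZ g).2 hnorm)) hg
    · exact h
  rcases hKn.eq_bot_or_eq_top with h | h
  · apply hnc
    have hfaith : ∀ x : G, (χ : G → ℂ) x = (χ : G → ℂ) 1 → x = 1 := fun x hx =>
      (Subgroup.mem_bot).1 (h ▸ (hK x).2 hx)
    intro a b
    have ha : a ∈ Subgroup.center G :=
      mem_center_of_norm_eq hchar hfaith ((hZ a).1 (hZtop ▸ Subgroup.mem_top a))
    exact (Subgroup.mem_center_iff.1 ha b).symm
  · have hconst : ∀ x : G, (χ : G → ℂ) x = (χ : G → ℂ) 1 := fun x =>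
      (hK x).1 (h ▸ Subgroup.mem_top x)
    -- then `χ` is the trivial character, of degree 1
    have hχ1 : (χ : G → ℂ) = fun _ => 1 := by
      by_contra hχ
      have horth := irr_orthonormal χ
        ⟨fun _ => (1 : ℂ), Cfsg.Agent.Lib.CT.Ops.isIrrCharacter_one⟩
      rw [if_neg (fun hh => hχ (congrArg Subtype.val hh)), classInner] at horth
      have hne : (Nat.card G : ℂ) ≠ 0 := Nat.cast_ne_zero.mpr Nat.card_pos.ne'
      have h1 : ∑ x : G, (χ : G → ℂ) x * conj ((1 : ℂ)) =
          (Nat.card G : ℂ) * (χ : G → ℂ) 1 := by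
        simp only [hconst, map_one, mul_one, Finset.sum_const, Finset.card_univ, nsmul_eq_mul,
          Nat.card_eq_fintype_card]
      rw [h1] at horth
      have h2 : (χ : G → ℂ) 1 = 0 := by
        rcases mul_eq_zero.1 horth with h3 | h3
        · exact absurd (inv_eq_zero.1 h3) hne
        · rcases mul_eq_zero.1 h3 with h4 | h4
          · exact absurd h4 hne
          · exact h4
      exact irr_apply_one_ne_zero χ.2 h2
    have hd1 : charDegree (χ : G → ℂ) = 1 := by
      rw [hχ1]
      simp [charDegree]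
    rw [hd1] at hdeg
    have h2a : 2 ≤ 2 ^ a := by
      calc 2 = 2 ^ 1 := by norm_num
        _ ≤ 2 ^ a := Nat.pow_le_pow_right (by norm_num) ha
    omega

end Cfsg.Agent.Lib.Helper64.BTVAN
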