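import Mathlib
import Cfsg.Agent.Lib.Helper76.BrRBStmt
import Cfsg.Agent.Lib.CT.Clifford
import Cfsg.Agent.Lib.CT.Kernel
import Cfsg.Agent.Lib.CT.KnUtil

/-!
# S4504, parts R and B: common lemmas on the sums `sP`, `sPt` over a Sylow subgroup of order `p`
(used by the pieces EX, EY, EO).
-/

set_option autoImplicit false
set_option linter.unusedSectionVars false

namespace Cfsg.Agent.Lib.Helper64.BrRBCom

open Cfsg Cfsg.Agent.Lib.Helper76.BrRB
open scoped ComplexConjugate Classical

universe u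

variable {L : Type u} [Group L] [Fintype L] {p : ℕ} [Fact p.Prime]

theorem sPt_eq_sP (P : Sylow p L) (F : L → ℂ) (k : L) :
    sPt P F k = sP P (fun u => F (u * k)) := rfl

theorem sPt_one (P : Sylow p L) (F : L → ℂ) : sPt P F 1 = sP P F := by
  unfold sPt sP
  simp only [mul_one]

theorem sP_add (P : Sylow p L) (F G : L → ℂ) :
    sP P (fun u => F u + G u) = sP P F + sP P G := by
  unfold sP
  rw [← Finset.sum_add_distrib]
  apply Finset.sum_congr rfl
  intro u _
  split_ifs <;> simp

theorem sPt_add (P : Sylow p L) (F G : L → ℂ) (k : L) :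
    sPt P (fun u => F u + G u) k = sPt P F k + sPt P G k := by
  rw [sPt_eq_sP, sPt_eq_sP, sPt_eq_sP]
  exact sP_add P _ _

/-- splitting off the term of the identity. -/
theorem sP_split (P : Sylow p L) (F : L → ℂ) :
    sP P F = F 1 + ∑ u : L, if (u ∈ (P : Subgroup L) ∧ u ≠ 1) then F u else 0 := by
  unfold sP
  rw [← Finset.add_sum_erase Finset.univ _ (Finset.mem_univ (1 : L))]
  rw [if_pos (one_mem _)]
  congr 1
  rw [← Finset.add_sum_erase Finset.univ
    (fun u => if (u ∈ (P : Subgroup L) ∧ u ≠ 1) then F u else 0) (Finset.mem_univ (1 : L))]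
  simp only [ne_eq, not_true_eq_false, and_false, if_false, zero_add]
  apply Finset.sum_congr rfl
  intro u hu
  have : u ≠ 1 := Finset.ne_of_mem_erase hu
  simp [this]

theorem sPt_split (P : Sylow p L) (F : L → ℂ) (k : L) :
    sPt P F k = F k + ∑ u : L, if (u ∈ (P : Subgroup L) ∧ u ≠ 1) then F (u * k) else 0 := by
  rw [sPt_eq_sP, sP_split]
  simp only [one_mul]

theorem sP_const (P : Sylow p L) (hP : Nat.card (P : Subgroup L) = p) (c : ℂ) :
    sP P (fun _ => c) = (p : ℂ) * c := by
  have hcard : (Finset.univ.filter (fun u : L => u ∈ (P : Subgroup L))).card = p := by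
    have h1 : Nat.card ↥(P : Subgroup L) =
        (Finset.univ.filter (fun u : L => u ∈ (P : Subgroup L))).card := by
      rw [Nat.card_eq_fintype_card, Fintype.card_subtype]
    rw [← h1, hP]
  unfold sP
  rw [← Finset.sum_filter, Finset.sum_const, nsmul_eq_mul, hcard]

/-- the sum of a constant over the nonidentity elements of `P`. -/
theorem sum_const_nontriv (P : Sylow p L) (hP : Nat.card (P : Subgroup L) = p) (c : ℂ) :
    (∑ u : L, if (u ∈ (P : Subgroup L) ∧ u ≠ 1) then c else 0) = ((p : ℂ) - 1) * c := by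
  have h := sP_split P (fun _ => c)
  rw [sP_const P hP] at h
  linear_combination (-1 : ℂ) * h

/-- `∑_{u ∈ P} ψ u = p f` with `f` a natural number (the multiplicity of the principal character
of `P` in the restriction of `ψ`). -/
theorem sP_nat (P : Sylow p L) (hP : Nat.card (P : Subgroup L) = p) {ψ : L → ℂ}
    (hψ : IsCharacter L ψ) : ∃ f : ℕ, sP P ψ = (p : ℂ) * (f : ℂ) := by
  obtain ⟨f, hf⟩ := Cfsg.Agent.Lib.CT.Clifford.classInner_char_nat
    (Cfsg.Agent.Lib.CT.Ops.isCharacter_restrict (P : Subgroup L) hψ)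
    (Cfsg.Agent.Lib.CT.Ops.isCharacter_one (G := ↥(P : Subgroup L)))
  refine ⟨f, ?_⟩
  unfold classInner at hf
  rw [hP] at hf
  have hsum : sP P ψ = ∑ u : ↥(P : Subgroup L), ψ (u : L) := by
    unfold sP
    rw [← Finset.sum_filter]
    exact Finset.sum_subtype (Finset.univ.filter (fun u => u ∈ (P : Subgroup L)))
      (by intro x; simp) ψ
  have hp0 : (p : ℂ) ≠ 0 := Nat.cast_ne_zero.mpr (Fact.out : p.Prime).ne_zero
  rw [hsum, ← hf]
  field_simp
  simp

theorem orderOf_eq_of_mem (P : Sylow p L) (hP : Nat.card (P : Subgroup L) = p) {u : L}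
    (hu : u ∈ (P : Subgroup L)) (hu1 : u ≠ 1) : orderOf u = p := by
  have h1 : orderOf u ∣ p := by
    have := Subgroup.orderOf_dvd_natCard (P : Subgroup L) hu
    rwa [hP] at this
  rcases (Nat.dvd_prime (Fact.out : p.Prime)).mp h1 with h | h
  · exact absurd (orderOf_eq_one_iff.mp h) hu1
  · exact h

theorem dvd_orderOf_of_mem (P : Sylow p L) (hP : Nat.card (P : Subgroup L) = p) {u : L}
    (hu : u ∈ (P : Subgroup L)) (hu1 : u ≠ 1) : p ∣ orderOf u := by
  rw [orderOf_eq_of_mem P hP hu hu1]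

/-- `u k` is `p`-singular for `1 ≠ u ∈ P` and `k ∈ C_L(P)` `p`-regular. -/
theorem dvd_orderOf_mul (P : Sylow p L) (hP : Nat.card (P : Subgroup L) = p) {u k : L}
    (hu : u ∈ (P : Subgroup L)) (hu1 : u ≠ 1)
    (hk : k ∈ Subgroup.centralizer ((P : Subgroup L) : Set L)) (hkr : ¬ p ∣ orderOf k) :
    p ∣ orderOf (u * k) := by
  have hcomm : Commute u k := Subgroup.mem_centralizer_iff.mp hk u hu
  have hou := orderOf_eq_of_mem P hP hu hu1
  have h1 : (u * k) ^ (orderOf (u * k) * orderOf k) = 1 := by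
    rw [pow_mul, pow_orderOf_eq_one, one_pow]
  rw [hcomm.mul_pow, pow_mul' k, pow_orderOf_eq_one, one_pow, mul_one] at h1
  have h2 : orderOf u ∣ orderOf (u * k) * orderOf k := orderOf_dvd_of_pow_eq_one h1
  rw [hou] at h2
  exact ((Nat.Prime.dvd_mul (Fact.out : p.Prime)).mp h2).resolve_right hkr

end Cfsg.Agent.Lib.Helper64.BrRBCom
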