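import Mathlib
import Cfsg.Agent.Lib.Helper64.BrRBCom

/-!
# S4504 / EO: excess of a character outside the principal block
-/

set_option autoImplicit false

namespace Cfsg.Agent.Lib.Helper64.BrRBEO

open Cfsg Cfsg.Agent.Lib.Helper76.BrRB Cfsg.Agent.Lib.Helper64.BrRBCom
open Cfsg.Agent.Lib.CT.Wedderburn
open scoped ComplexConjugate Classical

universe u

theorem main : EO.{u} := by
  intro L _ _ p _ P hP ψ hψ hvan hconst
  have hψc : IsCharacter L ψ := isCharacter_of_irr hψ
  obtain ⟨f, hf⟩ := sP_nat P hP hψc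
  have hd : (charDegree ψ : ℂ) = ψ 1 := char_natCast_charDegree hψc
  have hdpos : 0 < charDegree ψ := irr_charDegree_pos hψ
  have hp2 : 2 ≤ p := (Fact.out : p.Prime).two_le
  refine ⟨f, hf, ?_⟩
  set Creg : Finset L := Finset.univ.filter
    (fun k : L => k ∈ Subgroup.centralizer ((P : Subgroup L) : Set L) ∧ ¬ p ∣ orderOf k) with hCreg
  have hset : {k : L | k ∈ Subgroup.centralizer ((P : Subgroup L) : Set L) ∧ ¬ p ∣ orderOf k}
      = (Creg : Set L) := by
    ext k
    simp [hCreg]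
  have hvan' : ∀ u : L, u ∈ (P : Subgroup L) → u ≠ 1 → ∑ k ∈ Creg, ψ (u * k) = 0 := by
    intro u hu hu1
    have := hvan u hu hu1
    rw [hset, finsum_mem_coe_finset] at this
    exact this
  have hmemC : ∀ k ∈ Creg, k ∈ Subgroup.centralizer ((P : Subgroup L) : Set L) ∧
      ¬ p ∣ orderOf k := by
    intro k hk
    rw [hCreg, Finset.mem_filter] at hk
    exact hk.2
  have h1mem : (1 : L) ∈ Creg := by
    rw [hCreg, Finset.mem_filter]
    refine ⟨Finset.mem_univ _, one_mem _, ?_⟩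
    rw [orderOf_one]
    intro h
    have := Nat.le_of_dvd one_pos h
    omega
  have hA : ∑ k ∈ Creg, sPt P ψ k = (Creg.card : ℂ) * ((p : ℂ) * f) := by
    rw [Finset.sum_congr rfl (fun k hk => hconst k (hmemC k hk).1 (hmemC k hk).2),
      Finset.sum_const, nsmul_eq_mul, hf]
  have hB : ∑ k ∈ Creg, sPt P ψ k = ∑ k ∈ Creg, ψ k := by
    have h1 : ∑ k ∈ Creg, sPt P ψ k = sP P (fun u => ∑ k ∈ Creg, ψ (u * k)) := by
      unfold sPt sP
      rw [Finset.sum_comm]
      apply Finset.sum_congr rfl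
      intro u _
      split_ifs with h
      · rfl
      · simp
    rw [h1, sP_split]
    simp only [one_mul]
    have h0 : (∑ u : L, if (u ∈ (P : Subgroup L) ∧ u ≠ 1) then ∑ k ∈ Creg, ψ (u * k) else 0)
        = 0 := by
      apply Finset.sum_eq_zero
      intro u _
      split_ifs with h
      · exact hvan' u h.1 h.2
      · rfl
    rw [h0, add_zero]
  have hnorm : ‖∑ k ∈ Creg, ψ k‖ ≤ (Creg.card : ℝ) * (charDegree ψ : ℝ) := by
    calc ‖∑ k ∈ Creg, ψ k‖ ≤ ∑ k ∈ Creg, ‖ψ k‖ := norm_sum_le _ _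
      _ ≤ ∑ k ∈ Creg, (charDegree ψ : ℝ) := Finset.sum_le_sum (fun k _ => by
          have := Cfsg.Agent.Lib.CT.KnUtil.norm_le_apply_one hψc k
          rw [← hd] at this
          simpa using this)
      _ = (Creg.card : ℝ) * (charDegree ψ : ℝ) := by rw [Finset.sum_const, nsmul_eq_mul]
  rw [← hB, hA] at hnorm
  have hnorm2 : ‖(Creg.card : ℂ) * ((p : ℂ) * f)‖ = (Creg.card : ℝ) * ((p : ℝ) * f) := by
    rw [norm_mul, norm_mul]
    simp
  rw [hnorm2] at hnorm
  have hcpos : (0 : ℝ) < Creg.card := by exact_mod_cast Finset.card_pos.mpr ⟨1, h1mem⟩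
  have hpfd : (p : ℝ) * f ≤ charDegree ψ := le_of_mul_le_mul_left hnorm hcpos
  have hpfdN : p * f ≤ charDegree ψ := by exact_mod_cast hpfd
  have hpf : (p + 1) * f = p * f + f := by ring
  rw [hpf]
  rcases Nat.eq_zero_or_pos f with rfl | hfpos
  · simp only [mul_zero, add_zero]
    omega
  · have : 2 * f ≤ p * f := Nat.mul_le_mul_right f hp2
    omega

end Cfsg.Agent.Lib.Helper64.BrRBEO
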