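import Mathlib
import Cfsg.Agent.Lib.Helper64.BrRBCom

/-!
# S4504 / EX: excess of a non-exceptional character of the principal block
-/

set_option autoImplicit false

namespace Cfsg.Agent.Lib.Helper64.BrRBEX

open Cfsg Cfsg.Agent.Lib.Helper76.BrRB Cfsg.Agent.Lib.Helper64.BrRBCom
open Cfsg.Agent.Lib.CT.Wedderburn
open scoped ComplexConjugate Classical

universe u

theorem main : EX.{u} := by
  intro L _ _ p _ P hP hp5 hgen ψ hψ hnt ε hε hval
  have hψc : IsCharacter L ψ := isCharacter_of_irr hψ
  obtain ⟨f, hf⟩ := sP_nat P hP hψc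
  have hd : (charDegree ψ : ℂ) = ψ 1 := char_natCast_charDegree hψc
  have hdpos : 0 < charDegree ψ := irr_charDegree_pos hψ
  have hsplit : sP P ψ = ψ 1 + ((p : ℂ) - 1) * (ε : ℂ) := by
    rw [sP_split, ← sum_const_nontriv P hP]
    congr 1
    apply Finset.sum_congr rfl
    intro u _
    split_ifs with h
    · exact hval u (dvd_orderOf_of_mem P hP h.1 h.2)
    · rfl
  have hkey : (p : ℂ) * f = (charDegree ψ : ℂ) + ((p : ℂ) - 1) * ε := by
    rw [← hf, hsplit, hd]
  have hp1 : 1 ≤ p := by omega
  have hpf : (p + 1) * f = p * f + f := by ring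
  rcases hε with rfl | rfl
  · -- ε = 1
    have hN : p * f + 1 = charDegree ψ + p := by
      have h : ((p * f + 1 : ℕ) : ℂ) = ((charDegree ψ + p : ℕ) : ℂ) := by
        push_cast
        push_cast at hkey
        linear_combination hkey
      exact_mod_cast h
    have hf1 : f ≠ 1 := by
      rintro rfl
      have hd1 : charDegree ψ = 1 := by omega
      have hψ1 : ψ 1 = 1 := by rw [← hd, hd1]; simp
      obtain ⟨N, hNn, hmem⟩ := Cfsg.Agent.Lib.CT.Kernel.exists_normal_ker hψc
      have hPN : (P : Subgroup L) ≤ N := by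
        intro u hu
        rw [hmem]
        by_cases hu1 : u = 1
        · rw [hu1]
        · rw [hval u (dvd_orderOf_of_mem P hP hu hu1), hψ1]; simp
      have hle : Subgroup.normalClosure ((P : Subgroup L) : Set L) ≤ N :=
        Subgroup.normalClosure_le_normal hPN
      rw [hgen] at hle
      obtain ⟨g, hg⟩ := hnt
      apply hg
      have := (hmem g).mp (hle (Subgroup.mem_top g))
      rw [this, hψ1]
    have hf0 : f ≠ 0 := by
      rintro rfl
      simp at hN
      omega
    obtain ⟨f', rfl⟩ : ∃ f', f = f' + 2 := ⟨f - 2, by omega⟩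
    have hmul : p * (f' + 2) = p * f' + 2 * p := by ring
    have hle : f' ≤ p * f' := Nat.le_mul_of_pos_left f' (by omega)
    refine ⟨f' + 2, hf, ?_, ?_⟩
    · rw [hpf]; omega
    · intro heq
      rw [hpf] at heq
      have hf'0 : f' = 0 := by
        by_contra h
        have : 5 * f' ≤ p * f' := Nat.mul_le_mul_right f' hp5
        omega
      subst hf'0
      have hdp : charDegree ψ = p + 1 := by omega
      refine ⟨Or.inl hdp, ?_⟩
      intro k hk hkr hsk
      have h1 : sPt P ψ k = ψ k + ((p : ℂ) - 1) * ((1 : ℤ) : ℂ) := by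
        rw [sPt_split, ← sum_const_nontriv P hP]
        congr 1
        apply Finset.sum_congr rfl
        intro u _
        split_ifs with h
        · exact hval (u * k) (dvd_orderOf_mul P hP h.1 h.2 hk hkr)
        · rfl
      rw [hsk, hf] at h1
      rw [← hd, hdp]
      push_cast at h1 ⊢
      linear_combination (-1 : ℂ) * h1
  · -- ε = -1
    have hN : p * f + p = charDegree ψ + 1 := by
      have h : ((p * f + p : ℕ) : ℂ) = ((charDegree ψ + 1 : ℕ) : ℂ) := by
        push_cast
        push_cast at hkey
        linear_combination hkey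
      exact_mod_cast h
    have hle : f ≤ p * f := Nat.le_mul_of_pos_left f (by omega)
    refine ⟨f, hf, ?_, ?_⟩
    · rw [hpf]; omega
    · intro heq
      rw [hpf] at heq
      omega

end Cfsg.Agent.Lib.Helper64.BrRBEX
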