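import Mathlib
import Cfsg.Agent.Lib.Helper64.BrRBCom

/-!
# S4504 / EY: excess of an exceptional character of the principal block
-/

set_option autoImplicit false

namespace Cfsg.Agent.Lib.Helper64.BrRBEY

open Cfsg Cfsg.Agent.Lib.Helper76.BrRB Cfsg.Agent.Lib.Helper64.BrRBCom
open Cfsg.Agent.Lib.CT.Wedderburn
open scoped ComplexConjugate Classical

universe u

theorem main : EY.{u} := by
  intro L _ _ p _ P hP hp5 η η' hη hη' ε' hε' hsing hreg hsPt
  have hηc : IsCharacter L η := isCharacter_of_irr hη
  obtain ⟨f, hf⟩ := sP_nat P hP hηc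
  have hd : (charDegree η : ℂ) = η 1 := char_natCast_charDegree hηc
  have hdpos : 0 < charDegree η := irr_charDegree_pos hη
  have hp1 : 1 ≤ p := by omega
  have hpne1 : p ≠ 1 := by omega
  have hreg1 : η 1 = η' 1 := hreg 1 (by
    rw [orderOf_one]
    intro h
    exact hpne1 (Nat.dvd_one.mp h))
  have hsP' : sP P η' = sP P η := by
    rw [← sPt_one P η', ← sPt_one P η]
    exact (hsPt 1 (one_mem _)).symm
  -- the sum of the two
  have hsum : sP P η + sP P η' = (η 1 + η' 1) + ((p : ℂ) - 1) * (-(ε' : ℂ)) := by
    rw [← sP_add, sP_split, ← sum_const_nontriv P hP]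
    congr 1
    apply Finset.sum_congr rfl
    intro u _
    split_ifs with h
    · exact hsing u (dvd_orderOf_of_mem P hP h.1 h.2)
    · rfl
  have hkey : 2 * ((p : ℂ) * f) = 2 * (charDegree η : ℂ) + ((p : ℂ) - 1) * (-(ε' : ℂ)) := by
    rw [hsP', hf, ← hreg1, ← hd] at hsum
    linear_combination hsum
  have hpf : (p + 1) * f = p * f + f := by ring
  rcases hε' with rfl | rfl
  · -- ε' = 1
    have hN : 2 * (p * f) + p = 2 * charDegree η + 1 := by
      have h : ((2 * (p * f) + p : ℕ) : ℂ) = ((2 * charDegree η + 1 : ℕ) : ℂ) := by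
        push_cast
        push_cast at hkey
        linear_combination hkey
      exact_mod_cast h
    have hle : f ≤ p * f := Nat.le_mul_of_pos_left f (by omega)
    refine ⟨f, hf, ?_, ?_⟩
    · rw [hpf]; omega
    · intro heq
      rw [hpf] at heq
      omega
  · -- ε' = -1
    have hN : 2 * (p * f) + 1 = 2 * charDegree η + p := by
      have h : ((2 * (p * f) + 1 : ℕ) : ℂ) = ((2 * charDegree η + p : ℕ) : ℂ) := by
        push_cast
        push_cast at hkey
        linear_combination hkey
      exact_mod_cast h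
    have hf0 : f ≠ 0 := by
      rintro rfl
      simp at hN
      omega
    obtain ⟨f', rfl⟩ : ∃ f', f = f' + 1 := ⟨f - 1, by omega⟩
    have hmul : p * (f' + 1) = p * f' + p := by ring
    have hle : f' ≤ p * f' := Nat.le_mul_of_pos_left f' (by omega)
    refine ⟨f' + 1, hf, ?_, ?_⟩
    · rw [hpf]; omega
    · intro heq
      rw [hpf] at heq
      have hf'0 : f' = 0 := by
        by_contra h
        have : 5 * f' ≤ p * f' := Nat.mul_le_mul_right f' hp5
        omega
      subst hf'0
      have hdp : 2 * charDegree η = p + 1 := by omega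
      refine ⟨Or.inr hdp, ?_⟩
      intro k hk hkr hsk
      have h1 : sPt P η k + sPt P η' k
          = (η k + η' k) + ((p : ℂ) - 1) * (-((-1 : ℤ) : ℂ)) := by
        rw [← sPt_add, sPt_split, ← sum_const_nontriv P hP]
        congr 1
        apply Finset.sum_congr rfl
        intro u _
        split_ifs with h
        · exact hsing (u * k) (dvd_orderOf_mul P hP h.1 h.2 hk hkr)
        · rfl
      rw [← hsPt k hk, hsk, hf, ← hreg k hkr] at h1
      have hdC : (2 : ℂ) * (charDegree η : ℂ) = (p : ℂ) + 1 := by exact_mod_cast hdp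
      rw [hd] at hdC
      push_cast at h1
      have h2 : (2 : ℂ) * η k = 2 * η 1 := by linear_combination (-1 : ℂ) * h1 - hdC
      exact mul_left_cancel₀ (two_ne_zero) h2

end Cfsg.Agent.Lib.Helper64.BrRBEY
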