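import Mathlib
import Cfsg.Agent.Lib.Helper40.HPStmt
import Cfsg.Agent.Lib.Helper45.EPStmt
import Cfsg.Agent.Lib.Helper97.EPPELTE2
import Cfsg.Agent.Lib.Helper21.TPPERP
import Cfsg.Agent.Lib.Helper77.OPPFIXA
import Cfsg.Agent.Lib.Helper40.AltRank

/-!
# S5974 / C2DER (second seat, helper64): char 2, `d` even, `m ≡ 2 (mod 4)`: an involution of
`Omega^+_(2d)(q)` fixing no hyperbolic `m`-space.

The element is the one of the landed `Helper97.EPPELTE2.main` (S5988 / PELTE2) at `ρ = d`: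
`x = 1 + N`, `N V ≤ Fix x`, `Q = 0` on `N V`, `dim N V = d`.  For an invariant nondegenerate `W`
with complement `Y = W^⊥` (`Helper21.TPPERP.perp`): `2 dim N W ≤ dim W`, `2 dim N Y ≤ dim Y`
(`Helper77.OPPFIXA.ts_half`), `dim N W + dim N Y ≥ d`, so `2 dim N W = dim W = m`; and
`dim N W` is even as `(u, v) ↦ β(N u, v)` is alternating on `W` (`Helper40.AltRank`).
Hypothesis-free.
-/

set_option autoImplicit false
set_option maxHeartbeats 400000

namespace Cfsg.Agent.Lib.Helper64.HPC2DER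

open Module QuadraticMap
open Cfsg.Agent.Lib.Helper44.QSpace Cfsg.Agent.Lib.Helper44.NegPairs
open Cfsg.Agent.Lib.Helper44.WittND Cfsg.Agent.Lib.Helper44.WittND2
open Cfsg.Agent.Lib.Helper94.OPStmt Cfsg.Agent.Lib.Helper45.EPStmt
open Cfsg.Agent.Lib.Helper40.HPStmt

universe u

section gen

variable {F : Type*} [Field F] {V : Type u} [AddCommGroup V] [Module F V] [FiniteDimensional F V]

/-- char-free: if `β(N u, u) = 0` for all `u`, the rank of `N` on a nondegenerate invariant
subspace is even -/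
theorem even_rank_alt (Q : QuadraticForm F V) (N : V →ₗ[F] V)
    (halt : ∀ u, polar Q (N u) u = 0)
    (W : Submodule F V) (hW : NDsub Q W) (hNW : ∀ w ∈ W, N w ∈ W) :
    Even (finrank F ↥(W.map N)) := by
  classical
  have hskew : ∀ u k, polar Q (N u) k = -polar Q (N k) u := by
    intro u k
    have h := halt (u + k)
    rw [map_add, polar_add_left, polar_add_right, polar_add_right, halt u, halt k] at h
    linear_combination h
  obtain ⟨f, hf⟩ : ∃ f : ↥W →ₗ[F] V, f = N ∘ₗ W.subtype := ⟨_, rfl⟩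
  have hfa : ∀ w : ↥W, f w = N (w : V) := by
    intro w; rw [hf]; rfl
  obtain ⟨C0, hC0⟩ := Submodule.exists_isCompl (LinearMap.ker f)
  have hrange : LinearMap.range f = W.map N := by
    rw [hf, LinearMap.range_comp, Submodule.range_subtype]
  have hdim : finrank F ↥C0 = finrank F ↥(W.map N) := by
    have h1 := Submodule.finrank_add_eq_of_isCompl hC0
    have h3 := LinearMap.finrank_range_add_finrank_ker f
    rw [hrange] at h3
    omega
  rw [← hdim]
  obtain ⟨B, hB⟩ : ∃ B : LinearMap.BilinForm F ↥C0,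
      ∀ x y : ↥C0, B x y = polar Q (N ((x : ↥W) : V)) ((y : ↥W) : V) :=
    ⟨(((LinearMap.BilinForm.compLeft (polarBilin Q) N).restrict W).restrict C0), fun x y => rfl⟩
  apply Cfsg.Agent.Lib.Helper40.AltRank.even_finrank_of_alt B
  · intro x
    rw [hB]
    exact halt _
  · intro u hu
    have h1 : ∀ w ∈ W, polar Q (N ((u : ↥W) : V)) w = 0 := by
      intro w hw
      have hw' : (⟨w, hw⟩ : ↥W) ∈ LinearMap.ker f ⊔ C0 := by
        rw [hC0.sup_eq_top]; exact Submodule.mem_top
      obtain ⟨k, hk, c, hc, hkc⟩ := Submodule.mem_sup.mp hw'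
      have hk' : N (k : V) = 0 := by
        have := LinearMap.mem_ker.mp hk
        rwa [hfa] at this
      have hwe : w = (k : V) + (c : V) := by
        have := congrArg (Subtype.val) hkc
        simpa using this.symm
      have h3 := hu ⟨c, hc⟩
      rw [hB] at h3
      rw [hwe, polar_add_right, hskew _ (k : V), hk']
      simp only [polar_zero_left, neg_zero, zero_add]
      exact h3
    have h4 : N ((u : ↥W) : V) = 0 := hW _ (hNW _ (u : ↥W).2) h1
    have h5 : (u : ↥W) ∈ LinearMap.ker f ⊓ C0 :=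
      Submodule.mem_inf.mpr ⟨LinearMap.mem_ker.mpr (by rw [hfa]; exact h4), u.2⟩
    rw [hC0.inf_eq_bot, Submodule.mem_bot] at h5
    exact Subtype.ext h5

end gen

theorem omegaGL_le_isometry {F : Type u} [Field F] (d : ℕ)
    (x : Matrix.GeneralLinearGroup (P d) F)
    (hx : x ∈ Cfsg.Geo.omegaGL (Cfsg.quadFormPlus d F)) :
    x ∈ Cfsg.isometryGroup F (Cfsg.quadFormPlus d F) := by
  unfold Cfsg.Geo.omegaGL at hx
  obtain ⟨y, -, rfl⟩ := Subgroup.mem_map.mp hx
  exact y.2

theorem main : C2Der.{u} := by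
  intro F _ _ _ d m hd hde hm
  obtain ⟨x, hxO, hxx, hxs, hT, hQ0, hrk⟩ :=
    Cfsg.Agent.Lib.Helper97.EPPELTE2.main F d d (by omega) hde (by omega) le_rfl
  have hx : x ∈ Cfsg.isometryGroup F (Cfsg.quadFormPlus d F) := omegaGL_le_isometry d x hxO
  refine ⟨x, hxO, hxx, ?_, ?_⟩
  · intro h1
    apply hxs 1
    rw [h1, one_smul]
    rfl
  intro W hHyp hStab
  obtain ⟨hWm, hND, -⟩ := (hypJ_iff d m W).mp hHyp
  obtain ⟨Y₀, hWY₀, hNDY₀, hinf₀, hdim₀, hYst₀⟩ := Cfsg.Agent.Lib.Helper21.TPPERP.perp F d W hND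
  obtain ⟨Y, hYdef⟩ : ∃ Y : Submodule F (P d → F), Y = Y₀ := ⟨Y₀, rfl⟩
  have hNDY : NDegP d F Y := by
    rw [hYdef]
    exact hNDY₀
  have hinf : W ⊓ Y = ⊥ := by
    rw [hYdef]
    exact hinf₀
  have hdim : finrank F ↥W + finrank F ↥Y = 2 * d := by
    rw [hYdef]
    exact hdim₀
  have hStabY : StabP (x : Matrix (P d) (P d) F) Y := by
    rw [hYdef]
    exact hYst₀ x hx hStab
  obtain ⟨N, hNdef⟩ : ∃ N : (P d → F) →ₗ[F] (P d → F), N = NP (x : Matrix (P d) (P d) F) :=
    ⟨_, rfl⟩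
  rw [← hNdef] at hT hQ0 hrk
  have hNap : ∀ v, N v = Matrix.toLin' (x : Matrix (P d) (P d) F) v - v := by
    intro v
    rw [hNdef]
    unfold NP
    rw [LinearMap.sub_apply, LinearMap.id_apply]
  have hstab : ∀ (U : Submodule F (P d → F)), StabP (x : Matrix (P d) (P d) F) U →
      U.map N ≤ U := by
    intro U hU t ht
    obtain ⟨w, hw, rfl⟩ := Submodule.mem_map.mp ht
    rw [hNap]
    exact U.sub_mem (hU (Submodule.mem_map_of_mem hw)) hw
  have hsing : ∀ (U : Submodule F (P d → F)), ∀ t ∈ U.map N, plusQ d F t = 0 := by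
    intro U t ht
    obtain ⟨w, -, rfl⟩ := Submodule.mem_map.mp ht
    exact hQ0 w
  have hnd : ∀ (U : Submodule F (P d → F)), NDegP d F U → NDsub (plusQ d F) U := by
    intro U hU y hy hyz
    by_contra hy0
    obtain ⟨-, z, hz, hz0⟩ := hU y hy hy0
    exact hz0 (hyz z hz)
  have h1 : 2 * finrank F ↥(W.map N) ≤ finrank F ↥W :=
    Cfsg.Agent.Lib.Helper77.OPPFIXA.ts_half (plusQ d F) (hnd W hND) (hstab W hStab) (hsing W)
  have h2 : 2 * finrank F ↥(Y.map N) ≤ finrank F ↥Y :=
    Cfsg.Agent.Lib.Helper77.OPPFIXA.ts_half (plusQ d F) (hnd Y hNDY) (hstab Y hStabY) (hsing Y)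
  have hsup : W ⊔ Y = ⊤ := by
    apply Submodule.eq_top_of_finrank_eq
    have hV : finrank F (P d → F) = 2 * d := by
      rw [Module.finrank_fintype_fun_eq_card, Fintype.card_sum, Fintype.card_fin]
      omega
    have h3 := Submodule.finrank_sup_add_finrank_inf_eq W Y
    rw [hinf, finrank_bot] at h3
    omega
  have hle : LinearMap.range N ≤ W.map N ⊔ Y.map N := by
    rintro t ht1
    obtain ⟨v, rfl⟩ := LinearMap.mem_range.mp ht1
    have hv : v ∈ W ⊔ Y := by rw [hsup]; exact Submodule.mem_top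
    obtain ⟨w, hw, w', hw', rfl⟩ := Submodule.mem_sup.mp hv
    rw [map_add]
    exact Submodule.add_mem_sup (Submodule.mem_map_of_mem hw) (Submodule.mem_map_of_mem hw')
  have hd1 : finrank F ↥(LinearMap.range N) ≤ finrank F ↥(W.map N ⊔ Y.map N) :=
    Submodule.finrank_mono hle
  have hd2 : finrank F ↥(W.map N ⊔ Y.map N) ≤ finrank F ↥(W.map N) + finrank F ↥(Y.map N) :=
    Submodule.finrank_add_le_finrank_add_finrank (W.map N) (Y.map N)
  have hkey : 2 * finrank F ↥(W.map N) = m := by omega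
  -- the alternating form
  have hisoQ : ∀ v, plusQ d F (Matrix.toLin' (x : Matrix (P d) (P d) F) v) = plusQ d F v := by
    intro v
    have h := hx v v
    rw [Matrix.toLin'_apply]
    exact h
  have halt : ∀ u, polar (plusQ d F) (N u) u = 0 := by
    intro u
    have e1 : plusQ d F (u + N u) = plusQ d F u + plusQ d F (N u) + polar (plusQ d F) u (N u) :=
      QuadraticMap.map_add (plusQ d F) u (N u)
    have e2 : u + N u = Matrix.toLin' (x : Matrix (P d) (P d) F) u := by
      rw [hNap]; abel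
    rw [e2, hisoQ u] at e1
    have e3 : plusQ d F (N u) = 0 := hQ0 u
    rw [e3] at e1
    rw [polar_comm]
    linear_combination -e1
  have hev : Even (finrank F ↥(W.map N)) :=
    even_rank_alt (plusQ d F) N halt W (hnd W hND)
      (fun w hw => hstab W hStab (Submodule.mem_map_of_mem hw))
  obtain ⟨a, ha⟩ := hev
  omega

end Cfsg.Agent.Lib.Helper64.HPC2DER
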