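import Mathlib
import Cfsg.Agent.Lib.Helper17.CentFix
import Cfsg.Agent.Lib.Helper69.J1Stmt
import Cfsg.Agent.S0111

/-!
No simple group of order `35112 = 2^3 * 3 * 7 * 11 * 19` (piece O35112 of S4274).
-/

set_option autoImplicit false

namespace Cfsg.Agent.Lib.Helper64.J1O35112

open Subgroup MulAction
open Cfsg.Agent.Lib.Helper17.Sylow Cfsg.Agent.Lib.Helper17.Sylow2
open Cfsg.Agent.Lib.Helper17.CentFix Cfsg.Agent.Lib.Helper17.FixedPoints

universe u

theorem key19 : ∀ n ∈ Nat.divisors 1848, n % 19 = 1 → n ≠ 1 → n = 77 := by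
  decide +kernel

theorem exists_pow_order_two {G : Type*} [Group G] (x : G) (h8 : orderOf x ∣ 8) (h1 : x ≠ 1) :
    ∃ j : ℕ, orderOf (x ^ j) = 2 := by
  have hne : orderOf x ≠ 1 := fun h => h1 (orderOf_eq_one_iff.1 h)
  have hle : orderOf x ≤ 8 := Nat.le_of_dvd (by norm_num) h8
  have hcases : orderOf x = 2 ∨ orderOf x = 4 ∨ orderOf x = 8 := by
    generalize orderOf x = n at h8 hne hle
    interval_cases n <;> simp_all
  rcases hcases with h | h | h
  · exact ⟨1, by rw [pow_one]; exact h⟩
  · exact ⟨2, by rw [orderOf_pow' x (by norm_num), h]; decide⟩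
  · exact ⟨4, by rw [orderOf_pow' x (by norm_num), h]; decide⟩

theorem main : Cfsg.Agent.Lib.Helper69.J1Stmt.O35112.{u} := by
  intro G _ _ _ hcard
  have : Fact (Nat.Prime 19) := ⟨by norm_num⟩
  have : Fact (Nat.Prime 2) := ⟨by norm_num⟩
  have hG : ¬ IsMulCommutative G := not_comm_of_not_prime (by rw [hcard]; norm_num)
  have h19 : 19 ∣ Nat.card G := by rw [hcard]; norm_num
  have hN19 : Nat.card G = 19 ^ 1 * 1848 := by rw [hcard]; norm_num
  have hn_dvd : Nat.card (Sylow 19 G) ∣ 1848 := card_sylow_dvd hN19 (by norm_num)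
  have hn_mod := card_sylow_mod (G := G) 19
  have hn_ne := card_sylow_ne_one hG h19
  have hn : Nat.card (Sylow 19 G) = 77 :=
    key19 _ (Nat.mem_divisors.2 ⟨hn_dvd, by norm_num⟩) hn_mod hn_ne
  obtain ⟨P⟩ : Nonempty (Sylow 19 G) := inferInstance
  have hPcard : Nat.card (P : Subgroup G) = 19 := by
    have := card_sylow_subgroup hN19 (by norm_num) P
    simpa using this
  obtain ⟨N, hNdef⟩ : ∃ N : Subgroup G, N = normalizer ((P : Subgroup G) : Set G) := ⟨_, rfl⟩
  obtain ⟨C, hCdef⟩ : ∃ C : Subgroup G, C = centralizer ((P : Subgroup G) : Set G) := ⟨_, rfl⟩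
  have hCN : C ≤ N := by
    rw [hCdef, hNdef]; exact Subgroup.centralizer_le_normalizer _
  have hNcard : Nat.card N = 456 := by
    have := card_normalizer_mul_card_sylow P
    rw [hn, hcard, ← hNdef] at this
    omega
  have hidx : N.index = 77 := by
    have := N.card_mul_index
    rw [hNcard, hcard] at this
    omega
  have hX : Nat.card (G ⧸ N) = 77 := hidx
  -- (b) involutions of `C` have exactly one fixed point
  have hb : ∀ t : G, orderOf t = 2 → t ∈ C → Nat.card (fixedBy (G ⧸ N) t) = 1 := by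
    intro t ht htC
    rw [hCdef] at htC
    obtain ⟨k, h1, h2, h3⟩ := involution_fix_data hG P hPcard t ht htC
    rw [← hNdef] at h1 h2 h3
    rw [hidx] at h2 h3
    omega
  -- a subgroup of order 8 of `N`
  obtain ⟨S, hSN, hScard⟩ := exists_subgroup_le_card_pow_prime N 2 3 (by rw [hNcard]; norm_num)
  have hbase : ∀ x ∈ S, x • ((1 : G) : G ⧸ N) = ((1 : G) : G ⧸ N) := by
    intro x hx
    rw [coset_fixed_iff]
    have : (1 : G)⁻¹ * x * 1 = x := by group
    rw [this]
    exact hSN hx
  -- (c) some involution of `S` has more than one fixed point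
  have hc : ∃ v ∈ S, orderOf v = 2 ∧ Nat.card (fixedBy (G ⧸ N) v) ≠ 1 := by
    by_contra hno
    have hno' : ∀ v ∈ S, orderOf v = 2 → Nat.card (fixedBy (G ⧸ N) v) = 1 := by
      intro v hv hv2
      by_contra hh
      exact hno ⟨v, hv, hv2, hh⟩
    have hsemi : ∀ x ∈ S, x ≠ 1 → Nat.card (fixedBy (G ⧸ N) x) = 1 := by
      intro x hx hx1
      have h8 : orderOf x ∣ 8 := by
        have := orderOf_dvd_card_of_mem hx
        rwa [hScard] at this
      obtain ⟨j, hj⟩ := exists_pow_order_two x h8 hx1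
      have hv := hno' (x ^ j) (S.pow_mem hx j) hj
      apply le_antisymm
      · rw [← hv]
        apply Nat.card_mono (Set.toFinite _)
        have := fixedBy_subset_fixedBy_zpow (G ⧸ N) x (j : ℤ)
        rwa [zpow_natCast] at this
      · have hne : Nonempty (fixedBy (G ⧸ N) x) := ⟨⟨_, hbase x hx⟩⟩
        exact Nat.card_pos
    have h77 := card_modEq_one_of_semiregular (X := G ⧸ N) S _ hbase hsemi
    rw [hX, hScard] at h77
    unfold Nat.ModEq at h77
    norm_num at h77
  obtain ⟨v, hvS, hv2, hvfix⟩ := hc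
  have hvC : v ∉ C := fun h => hvfix (hb v hv2 h)
  -- `S` is a Sylow 2-subgroup of `G`
  obtain ⟨P2, hP2⟩ := IsPGroup.exists_le_sylow (IsPGroup.of_card hScard)
  have hN2 : Nat.card G = 2 ^ 3 * 4389 := by rw [hcard]; norm_num
  have hP2card : Nat.card (P2 : Subgroup G) = 2 ^ 3 := card_sylow_subgroup hN2 (by norm_num) P2
  have hSP2 : S = (P2 : Subgroup G) :=
    Subgroup.eq_of_le_of_card_ge hP2 (by rw [hScard, hP2card])
  -- `T = S ⊓ C` has index 2 in `S`
  obtain ⟨T, hT⟩ : ∃ T : Subgroup G, T = S ⊓ C := ⟨_, rfl⟩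
  have hTS : T ≤ S := by rw [hT]; exact inf_le_left
  have hvT : v ∉ T := by
    intro h
    rw [hT] at h
    exact hvC h.2
  have hrel : T.relIndex S = 2 := by
    have e1 : T.relIndex S = C.relIndex S := by rw [hT]; exact Subgroup.inf_relIndex_left S C
    have e2 : C.relIndex S ∣ C.relIndex N := by
      rw [← Subgroup.relIndex_subgroupOf hSN]
      have hnorm : (C.subgroupOf N).Normal := by
        rw [hCdef, hNdef]; infer_instance
      exact Subgroup.relIndex_dvd_index_of_normal (C.subgroupOf N) (S.subgroupOf N)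
    have e3 : C.relIndex N ∣ 18 := by
      have h1 := relIndex_centralizer_normalizer_dvd (P : Subgroup G)
      have hcyc : IsCyclic (P : Subgroup G) := isCyclic_of_prime_card hPcard
      rw [hcyc.card_mulAut, hPcard, Nat.totient_prime (by norm_num), ← hCdef, ← hNdef] at h1
      exact h1
    have e4 : T.relIndex S ∣ 8 := by
      have := card_mul_relIndex hTS
      rw [hScard] at this
      exact Dvd.intro_left _ this
    have e5 : T.relIndex S ∣ 2 := by
      have h18 : T.relIndex S ∣ 18 := e1 ▸ (e2.trans e3)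
      have := Nat.dvd_gcd e4 h18
      norm_num at this
      exact this
    have e6 : T.relIndex S ≠ 1 := by
      intro h
      exact hvT (Subgroup.relIndex_eq_one.1 h hvS)
    have hle : T.relIndex S ≤ 2 := Nat.le_of_dvd (by norm_num) e5
    have hpos : T.relIndex S ≠ 0 := fun h => by rw [h] at e5; norm_num at e5
    omega
  rw [hSP2] at hrel hTS hvS
  rcases Cfsg.Agent.S0111.result P2 T hTS hrel v hv2 hvS hvT with ⟨M, hMn, hMi, -⟩ | ⟨g, hg⟩
  · rcases hMn.eq_bot_or_eq_top with h | h
    · rw [h, Subgroup.index_bot, hcard] at hMi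
      omega
    · rw [h, Subgroup.index_top] at hMi
      omega
  · have hgC : g * v * g⁻¹ ∈ C := by
      rw [hT] at hg
      exact hg.2
    have h1 := hb (g * v * g⁻¹)
      (by rw [Cfsg.Agent.Lib.Helper17.Classes.orderOf_conj_eq]; exact hv2) hgC
    have h2 := card_fixedBy_conj (X := G ⧸ N) g⁻¹ v
    rw [inv_inv] at h2
    rw [h2] at h1
    exact hvfix h1

end Cfsg.Agent.Lib.Helper64.J1O35112
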