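import Mathlib
import Cfsg.Agent.Lib.Helper45.OMiStmt
import Cfsg.Agent.Lib.Helper29.HypDIMOBS
import Cfsg.Agent.Lib.Helper44.NegPairs
import Cfsg.Agent.Lib.Helper44.WittND2
import Cfsg.Agent.Lib.Helper43.HypBFE
import Cfsg.Agent.Lib.Helper43.HypBFO

/-!
# S5991 / BLOCKSM (call by helper45; helper64): DIRECT route, no embedding

`blocks_abs`: an ABSTRACT version of the S5992 `Blocks` induction, for any nondegenerate quadratic
space `(V, Q)` over a finite field of odd characteristic and any isometry `φ` with `φ ^ r = 1`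
(`r` an odd prime `≠ p`): for every `j` with `j c + dim Fix φ ≤ dim V` there is a `φ`-invariant
nondegenerate `E` of dimension `j c` without fixed vectors, orthogonal to `Fix φ`.
Uses the abstract block finders `Helper43.HypBFE.bfe` / `Helper43.HypBFO.bfo` and
`Helper29.HypDIMOBS.free_dvd`.  `main` instantiates it at the standard minus form.
-/

set_option autoImplicit false

universe u

open scoped Matrix

namespace Cfsg.Agent.Lib.Helper64.OMiBLOCKSM

open Module QuadraticMap
open Cfsg.Agent.Lib.Helper44.QSpace Cfsg.Agent.Lib.Helper44.WittND Cfsg.Agent.Lib.Helper44.WittND2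
open Cfsg.Agent.Lib.Helper37.HypStmt (cc)
open Cfsg.Agent.Lib.Helper44.NegPairs (minusQ sep_minusQ)

section abstract
variable {F : Type*} [Field F] [Fintype F] {V : Type*} [AddCommGroup V] [Module F V]
  [FiniteDimensional F V]

/-- abstract `Blocks` -/
theorem blocks_abs {p : ℕ} [Fact p.Prime] [CharP F p] (h2F : (2 : F) ≠ 0) (r : ℕ) [Fact r.Prime]
    (hr2 : r ≠ 2) (hrp : r ≠ p)
    (Q : QuadraticForm F V) (hS : Sep Q) (φ φ' : Module.End F V) (h1 : φ * φ' = 1)
    (h2 : φ' * φ = 1) (hφr : φ ^ r = 1) (hφ : ∀ v, Q (φ v) = Q v) :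
    ∀ j : ℕ, j * cc (orderOf ((Fintype.card F : ℕ) : ZMod r)) +
        finrank F (LinearMap.ker (φ - 1)) ≤ finrank F V →
      ∃ E : Submodule F V, (∀ v ∈ E, φ v ∈ E) ∧
        (∀ b ∈ E, (∀ z ∈ E, polar Q b z = 0) → b = 0) ∧
        finrank F E = j * cc (orderOf ((Fintype.card F : ℕ) : ZMod r)) ∧
        (∀ v ∈ E, φ v = v → v = 0) ∧
        (∀ u ∈ E, ∀ v, φ v = v → polar Q u v = 0) := by
  classical
  have hr : r.Prime := Fact.out
  have hr0 : (r : F) ≠ 0 := by
    rw [Ne, CharP.cast_eq_zero_iff F p]
    intro h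
    exact hrp ((Nat.prime_dvd_prime_iff_eq Fact.out hr).mp h).symm
  have hfinV : Finite V := Module.finite_of_finite F
  have hInv : ∀ R : Submodule F V, (∀ v ∈ R, φ v ∈ R) → (∀ v ∈ R, φ v = v → v = 0) →
      orderOf ((Fintype.card F : ℕ) : ZMod r) ∣ finrank F R :=
    fun R hR hfix => Cfsg.Agent.Lib.Helper29.HypDIMOBS.free_dvd φ r hφr R hR hfix
  have hpol : ∀ u v, polar Q (φ u) (φ v) = polar Q u v := by
    intro u v
    unfold polar
    rw [← map_add, hφ, hφ, hφ]
  have hφ'pow : φ' = φ ^ (r - 1) := by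
    have h3 : φ ^ r = φ ^ (r - 1) * φ := by
      rw [← pow_succ, Nat.sub_add_cancel hr.pos]
    calc φ' = φ ^ r * φ' := by rw [hφr, one_mul]
      _ = φ ^ (r - 1) * (φ * φ') := by rw [h3, mul_assoc]
      _ = φ ^ (r - 1) := by rw [h1, mul_one]
  have hφ'φ : ∀ v, φ' (φ v) = v := fun v => by
    rw [← Module.End.mul_apply, h2, Module.End.one_apply]
  have hφφ' : ∀ v, φ (φ' v) = v := fun v => by
    rw [← Module.End.mul_apply, h1, Module.End.one_apply]
  -- the fixed space is nondegenerate
  have hfixnd : ∀ b, φ b = b → (∀ z, φ z = z → polar Q b z = 0) → b = 0 := by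
    intro b hb hbz
    apply hS
    intro v
    have hk : ∀ k : ℕ, polar Q b ((φ ^ k) v) = polar Q b v := by
      intro k
      induction k with
      | zero => rw [pow_zero, Module.End.one_apply]
      | succ k ih =>
        rw [pow_succ', Module.End.mul_apply]
        have h3 := hpol b ((φ ^ k) v)
        rw [hb] at h3
        rw [h3, ih]
    have hsumfix : φ (∑ k ∈ Finset.range r, (φ ^ k) v) = ∑ k ∈ Finset.range r, (φ ^ k) v := by
      rw [map_sum]
      have e1 := Finset.sum_range_succ (fun k => (φ ^ k) v) r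
      have e2 := Finset.sum_range_succ' (fun k => (φ ^ k) v) r
      rw [e2] at e1
      simp only [hφr, pow_zero] at e1
      have e3 := add_right_cancel e1
      rw [← e3]
      refine Finset.sum_congr rfl fun k _ => ?_
      rw [pow_succ', Module.End.mul_apply]
    have h3 : polar Q b (∑ k ∈ Finset.range r, (φ ^ k) v) = (r : F) * polar Q b v := by
      rw [← polarBilin_apply_apply, map_sum]
      simp only [polarBilin_apply_apply, hk]
      rw [Finset.sum_const, Finset.card_range, nsmul_eq_mul]
    have h4 := hbz _ hsumfix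
    rw [h3] at h4
    exact (mul_eq_zero.1 h4).resolve_left hr0
  intro j
  induction j with
  | zero =>
    intro _
    refine ⟨⊥, ?_, ?_, ?_, ?_, ?_⟩
    · intro v hv
      rw [Submodule.mem_bot] at hv ⊢
      rw [hv, map_zero]
    · intro b hb _
      exact (Submodule.mem_bot F).1 hb
    · rw [zero_mul]
      exact finrank_bot F V
    · intro v hv _
      exact (Submodule.mem_bot F).1 hv
    · intro u hu v _
      rw [(Submodule.mem_bot F).1 hu]
      exact polar_zero_left Q v
  | succ j ih =>
    intro hj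
    obtain ⟨c, hc⟩ : ∃ c, c = cc (orderOf ((Fintype.card F : ℕ) : ZMod r)) := ⟨_, rfl⟩
    rw [← hc] at hj ih ⊢
    have hj' : j * c + finrank F (LinearMap.ker (φ - 1)) ≤ finrank F V := by
      have h3 : (j + 1) * c = j * c + c := by ring
      omega
    obtain ⟨E, hEinv, hEnd, hEdim, hEfix, hEorth⟩ := ih hj'
    rcases Nat.eq_zero_or_pos c with hc0 | hcpos
    · refine ⟨E, hEinv, hEnd, ?_, hEfix, hEorth⟩
      rw [hEdim, hc0, mul_zero, mul_zero]
    · obtain ⟨Fxs, hFxs⟩ : ∃ Fxs : Submodule F V, Fxs = LinearMap.ker (φ - 1) := ⟨_, rfl⟩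
      have hmemFx : ∀ v, v ∈ Fxs ↔ φ v = v := by
        intro v
        rw [hFxs, LinearMap.mem_ker, LinearMap.sub_apply, Module.End.one_apply, sub_eq_zero]
      rw [← hFxs] at hj
      obtain ⟨Z, hZ⟩ : ∃ Z : Submodule F V, Z = E ⊔ Fxs := ⟨_, rfl⟩
      have hEZ : ∀ e ∈ E, e ∈ Z := fun e he => by rw [hZ]; exact Submodule.mem_sup_left he
      have hFZ : ∀ f, φ f = f → f ∈ Z := fun f hf => by
        rw [hZ]; exact Submodule.mem_sup_right ((hmemFx f).2 hf)
      have hEF : E ⊓ Fxs = ⊥ := by
        rw [eq_bot_iff]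
        rintro v ⟨hvE, hvF⟩
        exact (Submodule.mem_bot F).2 (hEfix v hvE ((hmemFx v).1 hvF))
      have hZdim : finrank F Z = j * c + finrank F Fxs := by
        have h3 := Submodule.finrank_sup_add_finrank_inf_eq E Fxs
        rw [hEF, finrank_bot, add_zero, hEdim] at h3
        rw [hZ]
        exact h3
      have hZinv' : ∀ z ∈ Z, φ' z ∈ Z := by
        intro z hz
        rw [hZ] at hz
        obtain ⟨e, he, f, hf, rfl⟩ := Submodule.mem_sup.1 hz
        rw [map_add]
        refine Submodule.add_mem _ (hEZ _ ?_) (hFZ _ ?_)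
        · rw [hφ'pow]
          exact Cfsg.Agent.Lib.Helper29.HypDIMOBS.pow_mem φ E hEinv _ e he
        · have hf' : φ f = f := (hmemFx f).1 hf
          have h3 : φ' f = f := by
            have h4 := hφ'φ f
            rw [hf'] at h4
            exact h4
          rw [h3]
          exact hf'
      have hZnd : Z ⊓ LinearMap.BilinForm.orthogonal (polarBilin Q) Z = ⊥ := by
        rw [eq_bot_iff]
        intro v hv
        obtain ⟨hv1, hv2⟩ := Submodule.mem_inf.1 hv
        rw [hZ] at hv1
        obtain ⟨e, he, f, hf, rfl⟩ := Submodule.mem_sup.1 hv1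
        have hv2' : ∀ z ∈ Z, polar Q z (e + f) = 0 := fun z hz => hv2 z hz
        have hf' : φ f = f := (hmemFx f).1 hf
        have he0 : e = 0 := by
          apply hEnd e he
          intro z hz
          have h3 := hv2' z (hEZ z hz)
          rw [polar_add_right, hEorth z hz f hf', add_zero, polar_comm] at h3
          exact h3
        have hf0 : f = 0 := by
          apply hfixnd f hf'
          intro z hz
          have h3 := hv2' z (hFZ z hz)
          rw [he0, zero_add, polar_comm] at h3
          exact h3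
        rw [he0, hf0, add_zero]
        exact Submodule.zero_mem _
      obtain ⟨Y, hY⟩ : ∃ Y : Submodule F V,
          Y = LinearMap.BilinForm.orthogonal (polarBilin Q) Z := ⟨_, rfl⟩
      have hYmem : ∀ y, y ∈ Y → ∀ z ∈ Z, polar Q z y = 0 := by
        intro y hy z hz
        rw [hY] at hy
        exact hy z hz
      have hYmem' : ∀ y, (∀ z ∈ Z, polar Q z y = 0) → y ∈ Y := by
        intro y hy
        rw [hY]
        intro z hz
        exact hy z hz
      have hYnd0 : NDsub Q Y := hY ▸ ndsub_orth hS hZnd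
      have hYdim : finrank F Y = finrank F V - finrank F Z := by
        rw [hY]
        exact LinearMap.BilinForm.finrank_orthogonal (nondegenerate_of_sep hS) Z
      have hYinv : ∀ y ∈ Y, φ y ∈ Y := by
        intro y hy
        apply hYmem'
        intro z hz
        have h3 := hYmem y hy (φ' z) (hZinv' z hz)
        rw [← hpol, hφφ'] at h3
        exact h3
      have hYfix : ∀ y ∈ Y, φ y = y → y = 0 := by
        intro y hy hfix
        apply hfixnd y hfix
        intro z hz
        have h3 := hYmem y hy z (hFZ z hz)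
        rw [polar_comm]
        exact h3
      have hYnd : ∀ u ∈ Y, u ≠ 0 → ∃ y ∈ Y, polar Q u y ≠ 0 := by
        intro u hu hu0
        by_contra hcon
        push Not at hcon
        exact hu0 (hYnd0 u hu hcon)
      have hYne : Y ≠ ⊥ := by
        intro h
        rw [h, finrank_bot] at hYdim
        have h3 : (j + 1) * c = j * c + c := by ring
        omega
      have hB : ∃ B : Submodule F V, B ≤ Y ∧ (∀ v ∈ B, φ v ∈ B) ∧
          (∀ b ∈ B, (∀ z ∈ B, polar Q b z = 0) → b = 0) ∧ finrank F B = c := by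
        by_cases hev : Even (orderOf ((Fintype.card F : ℕ) : ZMod r))
        · have hcc : c = orderOf ((Fintype.card F : ℕ) : ZMod r) := by
            rw [hc]; unfold cc; rw [if_pos hev]
          rw [hcc]
          exact Cfsg.Agent.Lib.Helper43.HypBFE.bfe (p := p) h2F r hr2 hrp hev Q φ φ' h1 h2 hφr hφ
            hInv Y hYinv hYfix hYnd hYne
        · have hcc : c = 2 * orderOf ((Fintype.card F : ℕ) : ZMod r) := by
            rw [hc]; unfold cc; rw [if_neg hev]
          rw [hcc]
          exact Cfsg.Agent.Lib.Helper43.HypBFO.bfo (p := p) r hr2 hrp (Nat.not_even_iff_odd.1 hev)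
            Q φ φ' h1 h2 hφr hφ hInv Y hYinv hYfix hYnd hYne
      obtain ⟨B, hBY, hBinv, hBnd, hBdim⟩ := hB
      have hEB : ∀ e ∈ E, ∀ b ∈ B, polar Q e b = 0 := fun e he b hb =>
        hYmem b (hBY hb) e (hEZ e he)
      have hEBinf : E ⊓ B = ⊥ := by
        rw [eq_bot_iff]
        rintro v ⟨hvE, hvB⟩
        exact (Submodule.mem_bot F).2 (hEnd v hvE (fun z hz => by
          rw [polar_comm]; exact hEB z hz v hvB))
      refine ⟨E ⊔ B, ?_, ?_, ?_, ?_, ?_⟩
      · intro v hv
        obtain ⟨e, he, b, hb, rfl⟩ := Submodule.mem_sup.1 hv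
        rw [map_add]
        exact Submodule.add_mem _ (Submodule.mem_sup_left (hEinv e he))
          (Submodule.mem_sup_right (hBinv b hb))
      · intro v hv hrad
        obtain ⟨e, he, b, hb, rfl⟩ := Submodule.mem_sup.1 hv
        have he0 : e = 0 := by
          apply hEnd e he
          intro z hz
          have h3 := hrad z (Submodule.mem_sup_left hz)
          rw [polar_add_left, polar_comm Q b z, hEB z hz b hb, add_zero] at h3
          exact h3
        have hb0 : b = 0 := by
          apply hBnd b hb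
          intro z hz
          have h3 := hrad z (Submodule.mem_sup_right hz)
          rw [polar_add_left, hEB e he z hz, zero_add] at h3
          exact h3
        rw [he0, hb0, add_zero]
      · have h3 := Submodule.finrank_sup_add_finrank_inf_eq E B
        rw [hEBinf, finrank_bot, add_zero, hEdim, hBdim] at h3
        rw [h3]
        ring
      · intro v hv hfix
        obtain ⟨e, he, b, hb, rfl⟩ := Submodule.mem_sup.1 hv
        rw [map_add] at hfix
        have hz : φ e - e = b - φ b := sub_eq_sub_iff_add_eq_add.2 (by rw [hfix, add_comm])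
        have hz1 : φ e - e ∈ E := Submodule.sub_mem _ (hEinv e he) he
        have hz2 : φ e - e ∈ B := by
          rw [hz]; exact Submodule.sub_mem _ hb (hBinv b hb)
        have hz0 : φ e - e = 0 := by
          have h3 : φ e - e ∈ E ⊓ B := ⟨hz1, hz2⟩
          rw [hEBinf] at h3
          exact (Submodule.mem_bot F).1 h3
        have he0 : e = 0 := hEfix e he (sub_eq_zero.1 hz0)
        have hb0 : b = 0 := by
          apply hYfix b (hBY hb)
          rw [hz0] at hz
          exact (sub_eq_zero.1 hz.symm).symm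
        rw [he0, hb0, add_zero]
      · intro u hu v hv
        obtain ⟨e, he, b, hb, rfl⟩ := Submodule.mem_sup.1 hu
        rw [polar_add_left, hEorth e he v hv, zero_add, polar_comm]
        exact hYmem b (hBY hb) v (hFZ v hv)

end abstract

open Cfsg.Agent.Lib.Helper45.OMiStmt

/-- BLOCKSM -/
theorem main : BlocksM.{u} := by
  intro F _ _ p _ _ hq d hd a b hab r _ hr2 hrp x hx hxr j hj
  classical
  have h2 : (2 : F) ≠ 0 := Cfsg.Agent.Lib.Helper29.HypDIMOBS.two_ne_zero_of_odd_card hq
  have hS : Sep (minusQ (d - 1) F a b) := sep_minusQ h2 (d - 1) a b hab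
  obtain ⟨φ, φ', h1, h2', hφr, hφa, hφQ⟩ : ∃ φ φ' : Module.End F (M d → F),
      φ * φ' = 1 ∧ φ' * φ = 1 ∧ φ ^ r = 1 ∧
      (∀ v, φ v = (x : Matrix (M d) (M d) F) *ᵥ v) ∧
      (∀ v, minusQ (d - 1) F a b (φ v) = minusQ (d - 1) F a b v) := by
    refine ⟨Matrix.toLinAlgEquiv' (x : Matrix (M d) (M d) F),
      Matrix.toLinAlgEquiv' ((x⁻¹ : Matrix.GeneralLinearGroup (M d) F) : Matrix (M d) (M d) F),
      ?_, ?_, ?_, ?_, ?_⟩
    · rw [← map_mul, ← Units.val_mul, mul_inv_cancel, Units.val_one, map_one]
    · rw [← map_mul, ← Units.val_mul, inv_mul_cancel, Units.val_one, map_one]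
    · rw [← map_pow, ← Units.val_pow_eq_pow_val, hxr, Units.val_one, map_one]
    · intro v
      rw [Matrix.toLinAlgEquiv'_apply]
    · intro v
      rw [Matrix.toLinAlgEquiv'_apply]
      exact hx v v
  have hmemFx : ∀ v, v ∈ FxM (x : Matrix (M d) (M d) F) ↔ φ v = v := by
    intro v
    rw [mem_FxM, hφa]
  have hker : LinearMap.ker (φ - 1) = FxM (x : Matrix (M d) (M d) F) := by
    ext v
    rw [LinearMap.mem_ker, LinearMap.sub_apply, Module.End.one_apply, sub_eq_zero, hmemFx]
  have hdimV : finrank F (M d → F) = 2 * d := by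
    rw [Module.finrank_pi]
    simp
    omega
  obtain ⟨E, hEinv, hEnd, hEdim, hEfix, hEorth⟩ := blocks_abs (p := p) h2 r hr2 hrp
    (minusQ (d - 1) F a b) hS φ φ' h1 h2' hφr hφQ j (by rw [hker, hdimV]; exact hj)
  refine ⟨E, ?_, ?_, hEdim, ?_, ?_⟩
  · apply Submodule.map_le_iff_le_comap.mpr
    intro v hv
    rw [Submodule.mem_comap, Matrix.toLin'_apply, ← hφa]
    exact hEinv v hv
  · intro w hw hw0
    have h3 : ∃ z ∈ E, polar (minusQ (d - 1) F a b) w z ≠ 0 := by
      by_contra hcon
      push Not at hcon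
      exact hw0 (hEnd w hw hcon)
    obtain ⟨z, hz, hwz⟩ := h3
    refine ⟨⟨z, hz, ?_⟩, ⟨z, hz, hwz⟩⟩
    rw [polar_comm]
    exact hwz
  · rw [eq_bot_iff]
    rintro v ⟨hvE, hvF⟩
    exact (Submodule.mem_bot F).2 (hEfix v hvE ((hmemFx v).1 hvF))
  · intro u hu v hv
    exact hEorth u hu v ((hmemFx v).1 hv)

end Cfsg.Agent.Lib.Helper64.OMiBLOCKSM
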