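import Mathlib
import Cfsg.Agent.Lib.Helper45.OMiStmt
import Cfsg.Agent.Lib.Helper29.HypDIMOBS
import Cfsg.Agent.Lib.Helper44.NegPairs

/-!
# S5991 / DIMOBSM (call by helper45; helper64, port of `Helper21.OPDIMOBSP` to the minus form)

For an isometry `x` of the standard minus form with `x ^ r = 1`, `r` an odd prime `≠ p`, and an
`x`-invariant nondegenerate subspace `W`: `c ∣ dim W - dim (W ∩ Fix x)`.
-/

set_option autoImplicit false

universe u

open scoped Matrix

namespace Cfsg.Agent.Lib.Helper64.OMiDIMOBSM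

open Cfsg.Agent.Lib.Helper45.OMiStmt Cfsg.Agent.Lib.Helper29.HypDIMOBS
open Cfsg.Agent.Lib.Helper37.HypStmt (cc)
open Cfsg.Agent.Lib.Helper44.NegPairs (minusQ)

/-- DIMOBSM -/
theorem main : DimObsM.{u} := by
  intro F _ _ p _ _ hq d hd a b hab r _ hr2 hrp x hx hxr W hWs hWn
  classical
  obtain ⟨A, hAdef⟩ : ∃ A : (M d → F) →ₗ[F] (M d → F),
      A = Matrix.toLin' (x : Matrix (M d) (M d) F) := ⟨_, rfl⟩
  have hAv : ∀ v, A v = (x : Matrix (M d) (M d) F) *ᵥ v := by
    intro v; rw [hAdef, Matrix.toLin'_apply]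
  have hAr : A ^ r = 1 := by
    rw [hAdef, ← Matrix.toLin'_pow, ← Units.val_pow_eq_pow_val, hxr]
    simp [Module.End.one_eq_id]
  have hQ : ∀ v, minusQ (d - 1) F a b (A v) = minusQ (d - 1) F a b v := by
    intro v
    rw [hAv]
    exact hx v v
  have hW : ∀ w ∈ W, A w ∈ W := by
    intro w hw
    rw [hAdef]
    exact hWs (Submodule.mem_map_of_mem hw)
  have h2 : (2 : F) ≠ 0 := two_ne_zero_of_odd_card hq
  have hrF : (r : F) ≠ 0 := by
    rw [Ne, CharP.cast_eq_zero_iff F p r]
    intro h
    exact hrp ((Nat.prime_dvd_prime_iff_eq (Fact.out) (Fact.out)).mp h).symm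
  have hrodd : Odd r := (Fact.out : r.Prime).odd_of_ne_two hr2
  have hFx : ∀ v, v ∈ FxM (x : Matrix (M d) (M d) F) ↔ A v = v := by
    intro v; rw [mem_FxM, hAv]
  -- rank-nullity
  have hrk : Module.finrank F (W.map (A - 1)) +
      Module.finrank F ↥(W ⊓ FxM (x : Matrix (M d) (M d) F)) = Module.finrank F W := by
    have h := LinearMap.finrank_range_add_finrank_ker ((A - 1).domRestrict W)
    have e1 : LinearMap.range ((A - 1).domRestrict W) = W.map (A - 1) := by
      ext v
      simp only [LinearMap.mem_range, Submodule.mem_map, LinearMap.domRestrict_apply]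
      constructor
      · rintro ⟨y, hy⟩; exact ⟨y, y.2, hy⟩
      · rintro ⟨y, hy, hyv⟩; exact ⟨⟨y, hy⟩, hyv⟩
    have e2 : Module.finrank F (LinearMap.ker ((A - 1).domRestrict W)) =
        Module.finrank F ↥(W ⊓ FxM (x : Matrix (M d) (M d) F)) := by
      rw [LinearMap.ker_domRestrict]
      have e3 : (LinearMap.ker (A - 1)).comap W.subtype =
          (W ⊓ FxM (x : Matrix (M d) (M d) F)).comap W.subtype := by
        ext v
        simp only [Submodule.mem_comap, Submodule.subtype_apply, LinearMap.mem_ker,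
          LinearMap.sub_apply, Module.End.one_apply, Submodule.mem_inf, hFx, sub_eq_zero]
        constructor
        · intro h; exact ⟨v.2, h⟩
        · intro h; exact h.2
      rw [e3]
      exact (Submodule.comapSubtypeEquivOfLe inf_le_left).finrank_eq
    rw [e1, e2] at h
    exact h
  have hrk' : Module.finrank F W - Module.finrank F ↥(W ⊓ FxM (x : Matrix (M d) (M d) F)) =
      Module.finrank F (W.map (A - 1)) := by omega
  rw [hrk']
  have hRmem : ∀ u ∈ W.map (A - 1), ∃ w ∈ W, A w - w = u := by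
    intro u hu
    obtain ⟨w, hw, rfl⟩ := Submodule.mem_map.mp hu
    exact ⟨w, hw, by simp⟩
  have h1 : orderOf ((Fintype.card F : ℕ) : ZMod r) ∣ Module.finrank F (W.map (A - 1)) := by
    apply free_dvd A r hAr
    · intro u hu
      obtain ⟨w, hw, rfl⟩ := hRmem u hu
      refine Submodule.mem_map.mpr ⟨A w, hW w hw, ?_⟩
      simp
    · intro u hu h
      obtain ⟨w, hw, rfl⟩ := hRmem u hu
      exact no_fix A r hrF hAr w h
  have h2' : 2 ∣ Module.finrank F (W.map (A - 1)) := by
    apply Even.two_dvd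
    apply even_rank h2 (minusQ (d - 1) F a b) A r hrodd hrF hAr hQ W hW
    intro w hw hw0
    exact (hWn w hw hw0).1
  unfold cc
  split_ifs with he
  · exact h1
  · have hco : Nat.Coprime 2 (orderOf ((Fintype.card F : ℕ) : ZMod r)) := by
      rw [Nat.coprime_two_left]
      exact Nat.not_even_iff_odd.mp he
    exact hco.mul_dvd_of_dvd_of_dvd h2' h1

end Cfsg.Agent.Lib.Helper64.OMiDIMOBSM
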