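import Mathlib
import Cfsg.Agent.Lib.Helper16.P2pStmt

set_option autoImplicit false

/-!
# S4707 / PRE3 : `P` is self-centralizing
-/

namespace Cfsg.Agent.Lib.Helper64.P2PRE3

open Subgroup

universe u

/-- a subgroup of prime order is commutative -/
theorem comm_of_prime_card {G : Type*} [Group G] {p : ℕ} [Fact p.Prime] (P : Subgroup G)
    (h : Nat.card P = p) : ∀ a ∈ P, ∀ b ∈ P, a * b = b * a := by
  intro a ha b hb
  by_cases h1 : a = 1
  · rw [h1, one_mul, mul_one]
  · have hne : (⟨a, ha⟩ : P) ≠ 1 := fun hh => h1 (congrArg (fun z : ↥P => (z : G)) hh)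
    have hz := mem_zpowers_of_prime_card h hne (g' := ⟨b, hb⟩)
    obtain ⟨k, hk⟩ := Subgroup.mem_zpowers_iff.1 hz
    have hk' : a ^ k = b := congrArg (fun z : ↥P => (z : G)) hk
    rw [← hk']
    exact (Commute.zpow_right (Commute.refl a) k).eq

theorem main : Cfsg.Agent.Lib.Helper16.P2pStmt.Pre3.{u} := by
  intro G _ _ p _ hp2 P hPcard hN hmin
  have hp : p.Prime := Fact.out
  have hPc := comm_of_prime_card (P : Subgroup G) hPcard
  have hCN : centralizer ((P : Subgroup G) : Set G) ≤ normalizer ((P : Subgroup G) : Set G) :=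
    Subgroup.centralizer_le_normalizer _
  have hPC : (P : Subgroup G) ≤ centralizer ((P : Subgroup G) : Set G) := by
    intro a ha
    rw [Subgroup.mem_centralizer_iff]
    intro b hb
    exact hPc b hb a ha
  apply le_antisymm
  · by_contra hnot
    have h1 : Nat.card (P : Subgroup G) ∣ Nat.card (centralizer ((P : Subgroup G) : Set G)) :=
      Subgroup.card_dvd_of_le hPC
    have h2 : Nat.card (centralizer ((P : Subgroup G) : Set G)) ∣ 2 * p :=
      hN ▸ Subgroup.card_dvd_of_le hCN
    rw [hPcard] at h1
    obtain ⟨k, hk⟩ := h1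
    have hk2 : k ∣ 2 := by
      rw [hk, mul_comm 2 p] at h2
      exact (Nat.mul_dvd_mul_iff_left hp.pos).1 h2
    have hk12 : k = 1 ∨ k = 2 := by
      have := Nat.le_of_dvd (by norm_num) hk2
      interval_cases k
      · simp at hk2
      · exact Or.inl rfl
      · exact Or.inr rfl
    rcases hk12 with rfl | rfl
    · apply hnot
      have he : (P : Subgroup G) = centralizer ((P : Subgroup G) : Set G) :=
        Subgroup.eq_of_le_of_card_ge hPC (by rw [hk, hPcard, mul_one])
      rw [← he]
    · have hCeqN : centralizer ((P : Subgroup G) : Set G) =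
          normalizer ((P : Subgroup G) : Set G) :=
        Subgroup.eq_of_le_of_card_ge hCN (by rw [hk, hN]; omega)
      have hNC : normalizer ((P : Subgroup G) : Set G) ≤ centralizer ((P : Subgroup G) : Set G) :=
        hCeqN.ge
      have hcompl := MonoidHom.ker_transferSylow_isComplement' P hNC
      obtain ⟨K, hK⟩ : ∃ K : Subgroup G, K = (MonoidHom.transferSylow P hNC).ker := ⟨_, rfl⟩
      rw [← hK] at hcompl
      have hKn : K.Normal := by rw [hK]; exact MonoidHom.normal_ker _
      have hKne : K ≠ ⊥ := by
        intro hb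
        have h3 := hcompl.card_mul_card
        rw [hb, Subgroup.card_bot, one_mul, hPcard] at h3
        have h4 : Nat.card (normalizer ((P : Subgroup G) : Set G)) ≤ Nat.card G :=
          Subgroup.card_le_card_group _
        rw [hN, ← h3] at h4
        have := hp.pos
        omega
      have hPK := hmin K hKn hKne
      have hdisj : K ⊓ (P : Subgroup G) = ⊥ := disjoint_iff.1 hcompl.disjoint
      have hPbot : (P : Subgroup G) = ⊥ := by
        rw [← inf_of_le_right hPK]; exact hdisj
      have h5 : Nat.card (P : Subgroup G) = 1 := by rw [hPbot]; exact Subgroup.card_bot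
      rw [hPcard] at h5
      exact hp.one_lt.ne' h5
  · exact hPC

end Cfsg.Agent.Lib.Helper64.P2PRE3
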