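import Mathlib
import Cfsg.Agent.Lib.Helper16.P2pStmt
import Cfsg.Agent.Lib.Helper64.P2PRE3

set_option autoImplicit false

/-!
# S4707 / PRE4 : the group is perfect
-/

namespace Cfsg.Agent.Lib.Helper64.P2PRE4

open Subgroup
open scoped commutatorElement

universe u

theorem main : Cfsg.Agent.Lib.Helper16.P2pStmt.Pre4.{u} := by
  intro G _ _ p _ hp2 P hPcard hN hnn hmin
  have hp : p.Prime := Fact.out
  have hPc := Cfsg.Agent.Lib.Helper64.P2PRE3.comm_of_prime_card (P : Subgroup G) hPcard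
  by_contra hne
  obtain ⟨H, hH⟩ : ∃ H : Subgroup G, H = _root_.commutator G := ⟨_, rfl⟩
  rw [← hH] at hne
  have hHn : H.Normal := by rw [hH]; infer_instance
  have hHbot : H ≠ ⊥ := by
    intro hb
    apply hnn
    constructor
    intro n hn g
    have hc : ⁅g, n⁆ ∈ _root_.commutator G :=
      Subgroup.commutator_mem_commutator (Subgroup.mem_top g) (Subgroup.mem_top n)
    rw [← hH, hb, Subgroup.mem_bot, commutatorElement_def] at hc
    have : g * n * g⁻¹ = n := mul_inv_eq_one.1 hc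
    rw [this]; exact hn
  have hPH : (P : Subgroup G) ≤ H := hmin H hHn hHbot
  -- Frattini
  have hfr : normalizer ((P : Subgroup G) : Set G) ⊔ H = ⊤ :=
    Sylow.normalizer_sup_eq_top' P hPH
  have hPN : (P : Subgroup G) ≤ normalizer ((P : Subgroup G) : Set G) := Subgroup.le_normalizer
  have hPle : (P : Subgroup G) ≤ normalizer ((P : Subgroup G) : Set G) ⊓ H := le_inf hPN hPH
  have hNH : normalizer ((P : Subgroup G) : Set G) ⊓ H = (P : Subgroup G) := by
    have h1 : Nat.card (P : Subgroup G) ∣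
        Nat.card (normalizer ((P : Subgroup G) : Set G) ⊓ H : Subgroup G) :=
      Subgroup.card_dvd_of_le hPle
    have h2 : Nat.card (normalizer ((P : Subgroup G) : Set G) ⊓ H : Subgroup G) ∣ 2 * p :=
      hN ▸ Subgroup.card_dvd_of_le inf_le_left
    rw [hPcard] at h1
    obtain ⟨k, hk⟩ := h1
    have hk2 : k ∣ 2 := by
      rw [hk, mul_comm 2 p] at h2
      exact (Nat.mul_dvd_mul_iff_left hp.pos).1 h2
    have hk12 : k = 1 ∨ k = 2 := by
      have := Nat.le_of_dvd (by norm_num) hk2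
      interval_cases k
      · simp at hk2
      · exact Or.inl rfl
      · exact Or.inr rfl
    rcases hk12 with rfl | rfl
    · exact (Subgroup.eq_of_le_of_card_ge hPle (by rw [hk, hPcard, mul_one])).symm
    · exfalso
      have he : normalizer ((P : Subgroup G) : Set G) ⊓ H =
          normalizer ((P : Subgroup G) : Set G) :=
        Subgroup.eq_of_le_of_card_ge inf_le_left (by rw [hk, hN]; omega)
      have hle : normalizer ((P : Subgroup G) : Set G) ≤ H := inf_eq_left.1 he
      apply hne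
      rw [← hfr]
      exact (sup_eq_right.2 hle).symm
  -- the Sylow subgroup of H
  obtain ⟨P1, hP1⟩ : ∃ P1 : Sylow p ↥H, P1 = P.subtype hPH := ⟨_, rfl⟩
  have hP1mem : ∀ x : ↥H, x ∈ (P1 : Subgroup ↥H) ↔ (x : G) ∈ (P : Subgroup G) := by
    intro x
    rw [hP1, Sylow.coe_subtype, Subgroup.mem_subgroupOf]
  have hNC1 : normalizer ((P1 : Subgroup ↥H) : Set ↥H) ≤
      centralizer ((P1 : Subgroup ↥H) : Set ↥H) := by
    intro x hx
    rw [Subgroup.mem_normalizer_iff] at hx
    have hxN : (x : G) ∈ normalizer ((P : Subgroup G) : Set G) := by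
      rw [Subgroup.mem_normalizer_iff]
      intro y
      constructor
      · intro hy
        have := (hx ⟨y, hPH hy⟩).1 ((hP1mem _).2 hy)
        exact (hP1mem _).1 this
      · intro hy
        have hyH : y ∈ H := by
          have h3 : (x : G) * y * (x : G)⁻¹ ∈ H := hPH hy
          have h4 : y = (x : G)⁻¹ * ((x : G) * y * (x : G)⁻¹) * (x : G) := by group
          rw [h4]
          exact H.mul_mem (H.mul_mem (H.inv_mem x.2) h3) x.2
        have := (hx ⟨y, hyH⟩).2 ((hP1mem _).2 hy)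
        exact (hP1mem _).1 this
    have hxP : (x : G) ∈ (P : Subgroup G) := by
      rw [← hNH]; exact ⟨hxN, x.2⟩
    rw [Subgroup.mem_centralizer_iff]
    intro y hy
    apply Subtype.ext
    exact hPc _ ((hP1mem y).1 hy) _ hxP
  have hcompl := MonoidHom.ker_transferSylow_isComplement' P1 hNC1
  have hndvd := MonoidHom.not_dvd_card_ker_transferSylow P1 hNC1
  obtain ⟨f, hf⟩ : ∃ f : ↥H →* ↥(P1 : Subgroup ↥H), f = MonoidHom.transferSylow P1 hNC1 :=
    ⟨_, rfl⟩
  rw [← hf] at hcompl hndvd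
  -- conjugates of elements of the kernel stay in the kernel
  have hconj : ∀ k : ↥H, k ∈ f.ker → ∀ g : G, ∀ hg : g * (k : G) * g⁻¹ ∈ H,
      (⟨g * (k : G) * g⁻¹, hg⟩ : ↥H) ∈ f.ker := by
    intro k hk g hg
    rw [MonoidHom.mem_ker]
    have h1 : k ^ Nat.card f.ker = 1 := by
      have := pow_card_eq_one' (G := ↥f.ker) (x := ⟨k, hk⟩)
      exact congrArg (fun z : ↥f.ker => (z : ↥H)) this
    have h2 : (⟨g * (k : G) * g⁻¹, hg⟩ : ↥H) ^ Nat.card f.ker = 1 := by
      apply Subtype.ext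
      show (g * (k : G) * g⁻¹) ^ Nat.card f.ker = 1
      rw [conj_pow]
      have : (k : G) ^ Nat.card f.ker = 1 := congrArg (fun z : ↥H => (z : G)) h1
      rw [this, mul_one, mul_inv_cancel]
    have h3 : (f ⟨g * (k : G) * g⁻¹, hg⟩) ^ Nat.card f.ker = 1 := by
      rw [← map_pow, h2, map_one]
    obtain ⟨j, hj⟩ := P1.isPGroup' (f ⟨g * (k : G) * g⁻¹, hg⟩)
    have h4 := pow_gcd_eq_one.2 ⟨h3, hj⟩
    have hcop : Nat.Coprime (Nat.card f.ker) (p ^ j) :=
      Nat.Coprime.pow_right j ((Nat.Prime.coprime_iff_not_dvd hp).2 hndvd).symm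
    rw [Nat.Coprime] at hcop
    rw [hcop, pow_one] at h4
    exact h4
  by_cases hKb : f.ker = ⊥
  · rw [hKb] at hcompl
    have hP1top : (P1 : Subgroup ↥H) = ⊤ := Subgroup.isComplement'_bot_left.1 hcompl
    have hHP : H ≤ (P : Subgroup G) := by
      intro h hh
      have : (⟨h, hh⟩ : ↥H) ∈ (P1 : Subgroup ↥H) := by rw [hP1top]; exact Subgroup.mem_top _
      exact (hP1mem _).1 this
    have : (P : Subgroup G) = H := le_antisymm hPH hHP
    apply hnn
    rw [this]; exact hHn
  · obtain ⟨K, hK⟩ : ∃ K : Subgroup G, K = f.ker.map H.subtype := ⟨_, rfl⟩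
    have hKn : K.Normal := by
      constructor
      intro n hn g
      rw [hK] at hn ⊢
      obtain ⟨k, hk, rfl⟩ := hn
      have hg : g * (k : G) * g⁻¹ ∈ H := hHn.conj_mem _ k.2 g
      exact ⟨⟨g * (k : G) * g⁻¹, hg⟩, hconj k hk g hg, rfl⟩
    have hKne : K ≠ ⊥ := by
      intro hb
      apply hKb
      rw [hK] at hb
      exact (Subgroup.map_eq_bot_iff_of_injective _ (Subgroup.subtype_injective H)).1 hb
    have hPK := hmin K hKn hKne
    have hdisj : f.ker ⊓ (P1 : Subgroup ↥H) = ⊥ := disjoint_iff.1 hcompl.disjoint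
    have hP1bot : ∀ x ∈ (P : Subgroup G), x = 1 := by
      intro x hx
      have hxK := hPK hx
      rw [hK] at hxK
      obtain ⟨k, hk, rfl⟩ := hxK
      have : k ∈ f.ker ⊓ (P1 : Subgroup ↥H) := ⟨hk, (hP1mem k).2 hx⟩
      rw [hdisj, Subgroup.mem_bot] at this
      rw [this]; rfl
    have : (P : Subgroup G) = ⊥ := (Subgroup.eq_bot_iff_forall _).2 hP1bot
    have h5 : Nat.card (P : Subgroup G) = 1 := by rw [this]; exact Subgroup.card_bot
    rw [hPcard] at h5
    exact hp.one_lt.ne' h5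

end Cfsg.Agent.Lib.Helper64.P2PRE4
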