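import Mathlib
import Cfsg.Agent.Lib.Helper23.S79Stmt

/-!
# S1379, piece `PARTS`: the `π`-part and the `π'`-part of an element
-/

set_option autoImplicit false

namespace Cfsg.Agent.Lib.Helper64.S79PARTS

open Cfsg Cfsg.Agent.Lib.Helper23.S79Stmt

universe u

/-- a nonzero natural number is the product of a `π`-number and a coprime `π'`-number -/
theorem split_nat (π : Set ℕ) (n : ℕ) (hn : n ≠ 0) :
    ∃ n₁ n₂ : ℕ, n = n₁ * n₂ ∧ Nat.Coprime n₁ n₂ ∧ (∀ p : ℕ, p.Prime → p ∣ n₁ → p ∈ π) ∧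
      (∀ p : ℕ, p.Prime → p ∣ n₂ → p ∉ π) := by
  revert hn
  refine Nat.recOnPrimeCoprime (motive := fun n => n ≠ 0 → ∃ n₁ n₂ : ℕ, n = n₁ * n₂ ∧
    Nat.Coprime n₁ n₂ ∧ (∀ p : ℕ, p.Prime → p ∣ n₁ → p ∈ π) ∧
      (∀ p : ℕ, p.Prime → p ∣ n₂ → p ∉ π)) ?_ ?_ ?_ n
  · intro h
    exact absurd rfl h
  · intro p k hp _
    by_cases hpπ : p ∈ π
    · refine ⟨p ^ k, 1, (mul_one _).symm, Nat.coprime_one_right _, ?_, ?_⟩
      · intro q hq hqd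
        have h := (Nat.prime_dvd_prime_iff_eq hq hp).1 (hq.dvd_of_dvd_pow hqd)
        rw [h]
        exact hpπ
      · intro q hq hqd
        exact absurd (Nat.dvd_one.1 hqd) hq.ne_one
    · refine ⟨1, p ^ k, (one_mul _).symm, Nat.coprime_one_left _, ?_, ?_⟩
      · intro q hq hqd
        exact absurd (Nat.dvd_one.1 hqd) hq.ne_one
      · intro q hq hqd
        have h := (Nat.prime_dvd_prime_iff_eq hq hp).1 (hq.dvd_of_dvd_pow hqd)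
        rw [h]
        exact hpπ
  · intro a b ha hb hab iha ihb _
    obtain ⟨a₁, a₂, rfl, hca, ha1, ha2⟩ := iha (by omega)
    obtain ⟨b₁, b₂, rfl, hcb, hb1, hb2⟩ := ihb (by omega)
    rw [Nat.coprime_mul_iff_left, Nat.coprime_mul_iff_right, Nat.coprime_mul_iff_right] at hab
    refine ⟨a₁ * b₁, a₂ * b₂, by ring, ?_, ?_, ?_⟩
    · rw [Nat.coprime_mul_iff_left, Nat.coprime_mul_iff_right, Nat.coprime_mul_iff_right]
      exact ⟨⟨hca, hab.1.2⟩, ⟨hab.2.1.symm, hcb⟩⟩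
    · intro p hp hpd
      rcases (Nat.Prime.dvd_mul hp).1 hpd with h | h
      · exact ha1 p hp h
      · exact hb1 p hp h
    · intro p hp hpd
      rcases (Nat.Prime.dvd_mul hp).1 hpd with h | h
      · exact ha2 p hp h
      · exact hb2 p hp h

theorem main : Parts.{u} := by
  intro G _ _ b π
  have hn : orderOf b ≠ 0 := (orderOf_pos b).ne'
  obtain ⟨n₁, n₂, hn12, hcop, h1, h2⟩ := split_nat π (orderOf b) hn
  have hbez : (n₁ : ℤ) * Nat.gcdA n₁ n₂ + n₂ * Nat.gcdB n₁ n₂ = 1 := by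
    have h := Nat.gcd_eq_gcd_ab n₁ n₂
    rw [hcop.gcd_eq_one] at h
    exact_mod_cast h.symm
  have hpow : b ^ ((n₁ : ℤ) * n₂) = 1 := by
    have h : ((n₁ : ℤ) * n₂) = ((orderOf b : ℕ) : ℤ) := by
      rw [hn12]
      push_cast
      ring
    rw [h, zpow_natCast, pow_orderOf_eq_one]
  have e1 : (b ^ ((n₂ : ℤ) * Nat.gcdB n₁ n₂)) ^ n₁ = 1 := by
    rw [← zpow_natCast, ← zpow_mul]
    have h : (n₂ : ℤ) * Nat.gcdB n₁ n₂ * (n₁ : ℤ) = ((n₁ : ℤ) * n₂) * Nat.gcdB n₁ n₂ := by ring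
    rw [h, zpow_mul, hpow, one_zpow]
  have e2 : (b ^ ((n₁ : ℤ) * Nat.gcdA n₁ n₂)) ^ n₂ = 1 := by
    rw [← zpow_natCast, ← zpow_mul]
    have h : (n₁ : ℤ) * Nat.gcdA n₁ n₂ * (n₂ : ℤ) = ((n₁ : ℤ) * n₂) * Nat.gcdA n₁ n₂ := by ring
    rw [h, zpow_mul, hpow, one_zpow]
  have d1 := orderOf_dvd_of_pow_eq_one e1
  have d2 := orderOf_dvd_of_pow_eq_one e2
  have hprod : b = b ^ ((n₂ : ℤ) * Nat.gcdB n₁ n₂) * b ^ ((n₁ : ℤ) * Nat.gcdA n₁ n₂) := by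
    rw [← zpow_add]
    have h : (n₂ : ℤ) * Nat.gcdB n₁ n₂ + (n₁ : ℤ) * Nat.gcdA n₁ n₂ = 1 := by linarith
    rw [h, zpow_one]
  have hcomm : b ^ ((n₂ : ℤ) * Nat.gcdB n₁ n₂) * b ^ ((n₁ : ℤ) * Nat.gcdA n₁ n₂) =
      b ^ ((n₁ : ℤ) * Nat.gcdA n₁ n₂) * b ^ ((n₂ : ℤ) * Nat.gcdB n₁ n₂) := by
    rw [← zpow_add, ← zpow_add, add_comm]
  have hP1 : ∀ p : ℕ, p.Prime → p ∣ orderOf (b ^ ((n₂ : ℤ) * Nat.gcdB n₁ n₂)) → p ∈ π :=
    fun p hp hd => h1 p hp (hd.trans d1)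
  have hP2 : ∀ p : ℕ, p.Prime → p ∣ orderOf (b ^ ((n₁ : ℤ) * Nat.gcdA n₁ n₂)) → p ∉ π :=
    fun p hp hd => h2 p hp (hd.trans d2)
  have hlcm : orderOf b ∣ Nat.lcm (orderOf (b ^ ((n₂ : ℤ) * Nat.gcdB n₁ n₂)))
      (orderOf (b ^ ((n₁ : ℤ) * Nat.gcdA n₁ n₂))) := by
    have h := Commute.orderOf_mul_dvd_lcm (show Commute (b ^ ((n₂ : ℤ) * Nat.gcdB n₁ n₂))
      (b ^ ((n₁ : ℤ) * Nat.gcdA n₁ n₂)) from hcomm)
    rwa [← hprod] at h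
  refine ⟨b ^ ((n₂ : ℤ) * Nat.gcdB n₁ n₂), b ^ ((n₁ : ℤ) * Nat.gcdA n₁ n₂), hprod, hcomm,
    Subgroup.zpow_mem_zpowers b _, Subgroup.zpow_mem_zpowers b _, hP1, hP2, ?_, ?_⟩
  · intro p hp hd hpπ
    rcases (Nat.Prime.dvd_mul hp).1 ((hd.trans hlcm).trans (Nat.lcm_dvd_mul _ _)) with h | h
    · exact h
    · exact absurd hpπ (hP2 p hp h)
  · intro p hp hd hpπ
    rcases (Nat.Prime.dvd_mul hp).1 ((hd.trans hlcm).trans (Nat.lcm_dvd_mul _ _)) with h | h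
    · exact absurd (hP1 p hp h) hpπ
    · exact h

end Cfsg.Agent.Lib.Helper64.S79PARTS
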