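import Mathlib
import Cfsg.Agent.Lib.Helper23.S79Stmt

/-!
# S1379, piece `TCONJ`: `tildeOf N A` is closed under conjugation
-/

set_option autoImplicit false

namespace Cfsg.Agent.Lib.Helper64.S79TCONJ

open Cfsg Cfsg.Agent.Lib.Helper23.S79Stmt

universe u

theorem main : TConj.{u} := by
  intro G _ N A g c hg
  obtain ⟨a, ha, r, hr, y, rfl⟩ := hg
  exact ⟨a, ha, r, hr, c * y, by group⟩

end Cfsg.Agent.Lib.Helper64.S79TCONJ
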