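import Mathlib
import Cfsg.Agent.Lib.Helper52.SpStmt

set_option autoImplicit false

/-!
# S5171 / NT1 : an element of `Sp` normalizing `U` lies in the Borel subgroup
-/

namespace Cfsg.Agent.Lib.Helper64.SpNT1

open Matrix Cfsg.Agent.Lib.Helper43.SpBasic Cfsg.Agent.Lib.Helper43.SpSylow
open Cfsg.Agent.Lib.Helper43.PSLnUT (IsUT isUT_one)
open Cfsg.Agent.Lib.Helper52.SpStmt

universe u

variable {m : ℕ} {F : Type u} [Field F]

/-- if `aᵀ * d = 1` with `a` upper unitriangular then `d` is lower unitriangular -/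
theorem lowerD {a d : Matrix (Fin m) (Fin m) F} (ha : IsUT a) (h : aᵀ * d = 1) :
    ∀ i k : Fin m, i ≤ k → d i k = if i = k then 1 else 0 := by
  have key : ∀ n : ℕ, ∀ i k : Fin m, (i : ℕ) = n → i ≤ k →
      d i k = if i = k then 1 else 0 := by
    intro n
    induction n using Nat.strong_induction_on with
    | _ n ih =>
      intro i k hin hik
      have h1 := congrFun (congrFun h i) k
      rw [Matrix.mul_apply, Matrix.one_apply] at h1
      rw [Finset.sum_eq_single i] at h1
      · rw [Matrix.transpose_apply, ha.2, one_mul] at h1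
        exact h1
      · intro j _ hji
        rw [Matrix.transpose_apply]
        rcases lt_or_gt_of_ne hji with hlt | hgt
        · have hjk : j < k := lt_of_lt_of_le hlt hik
          have := ih (j : ℕ) (by rw [← hin]; exact hlt) j k rfl (le_of_lt hjk)
          rw [this, if_neg (ne_of_lt hjk), mul_zero]
        · rw [ha.1 j i hgt, zero_mul]
      · intro hh; exact absurd (Finset.mem_univ _) hh
  intro i k hik
  exact key _ i k rfl hik

theorem U_d [Finite F] {W : Matrix.symplecticGroup (Fin m) F} (hW : W ∈ U) (i k : Fin m)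
    (hik : i ≤ k) :
    (W : Matrix (Fin m ⊕ Fin m) (Fin m ⊕ Fin m) F) (Sum.inr i) (Sum.inr k) =
      if i = k then 1 else 0 :=
  lowerD hW.2 (blocks hW).2.1 i k hik

theorem conj_eq [Finite F] (g0 : Matrix.symplecticGroup (Fin m) F)
    (h : ∀ u ∈ (U : Subgroup (Matrix.symplecticGroup (Fin m) F)), g0 * u * g0⁻¹ ∈ U)
    {u : Matrix.symplecticGroup (Fin m) F} (hu : u ∈ U) :
    ∃ W ∈ (U : Subgroup (Matrix.symplecticGroup (Fin m) F)),
      (g0 : Matrix (Fin m ⊕ Fin m) (Fin m ⊕ Fin m) F) *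
        (u : Matrix (Fin m ⊕ Fin m) (Fin m ⊕ Fin m) F) =
      (W : Matrix (Fin m ⊕ Fin m) (Fin m ⊕ Fin m) F) *
        (g0 : Matrix (Fin m ⊕ Fin m) (Fin m ⊕ Fin m) F) := by
  refine ⟨g0 * u * g0⁻¹, h u hu, ?_⟩
  have e : g0 * u = (g0 * u * g0⁻¹) * g0 := by group
  exact congrArg (fun z : Matrix.symplecticGroup (Fin m) F =>
    (z : Matrix (Fin m ⊕ Fin m) (Fin m ⊕ Fin m) F)) e

/-- row `inr i'` of `W * G` for `W ∈ U` -/
theorem rowsum_inr [Finite F] {W : Matrix.symplecticGroup (Fin m) F} (hW : W ∈ U) (i' : Fin m)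
    (c : Fin m ⊕ Fin m → F) (hc : ∀ k : Fin m, k < i' → c (Sum.inr k) = 0) :
    ∑ t, (W : Matrix (Fin m ⊕ Fin m) (Fin m ⊕ Fin m) F) (Sum.inr i') t * c t =
      c (Sum.inr i') := by
  rw [Fintype.sum_sum_type]
  have h1 : ∑ j : Fin m, (W : Matrix (Fin m ⊕ Fin m) (Fin m ⊕ Fin m) F) (Sum.inr i')
      (Sum.inl j) * c (Sum.inl j) = 0 := by
    apply Finset.sum_eq_zero
    intro j _
    have : (W : Matrix (Fin m ⊕ Fin m) (Fin m ⊕ Fin m) F) (Sum.inr i') (Sum.inl j) = 0 :=
      congrFun (congrFun hW.1 i') j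
    rw [this, zero_mul]
  rw [h1, zero_add, Finset.sum_eq_single i']
  · rw [U_d hW i' i' le_rfl, if_pos rfl, one_mul]
  · intro k _ hk
    rcases lt_or_gt_of_ne hk with hlt | hgt
    · rw [hc k hlt, mul_zero]
    · rw [U_d hW i' k (le_of_lt hgt), if_neg (ne_of_lt hgt), zero_mul]
  · intro hh; exact absurd (Finset.mem_univ _) hh

/-- row `inl i` of `W * G` for `W ∈ U` -/
theorem rowsum_inl [Finite F] {W : Matrix.symplecticGroup (Fin m) F} (hW : W ∈ U) (i : Fin m)
    (c : Fin m ⊕ Fin m → F) (hc : ∀ k : Fin m, i < k → c (Sum.inl k) = 0)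
    (hc' : ∀ k : Fin m, c (Sum.inr k) = 0) :
    ∑ t, (W : Matrix (Fin m ⊕ Fin m) (Fin m ⊕ Fin m) F) (Sum.inl i) t * c t =
      c (Sum.inl i) := by
  rw [Fintype.sum_sum_type]
  have h1 : ∑ j : Fin m, (W : Matrix (Fin m ⊕ Fin m) (Fin m ⊕ Fin m) F) (Sum.inl i)
      (Sum.inr j) * c (Sum.inr j) = 0 := by
    apply Finset.sum_eq_zero
    intro j _
    rw [hc' j, mul_zero]
  rw [h1, add_zero, Finset.sum_eq_single i]
  · have : (W : Matrix (Fin m ⊕ Fin m) (Fin m ⊕ Fin m) F) (Sum.inl i) (Sum.inl i) = 1 :=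
      hW.2.2 i
    rw [this, one_mul]
  · intro k _ hk
    rcases lt_or_gt_of_ne hk with hlt | hgt
    · have : (W : Matrix (Fin m ⊕ Fin m) (Fin m ⊕ Fin m) F) (Sum.inl i) (Sum.inl k) = 0 :=
        hW.2.1 i k hlt
      rw [this, zero_mul]
    · rw [hc k hgt, mul_zero]
  · intro hh; exact absurd (Finset.mem_univ _) hh

theorem mul_fromBlocks_inl (G : Matrix (Fin m ⊕ Fin m) (Fin m ⊕ Fin m) F)
    (A B C D : Matrix (Fin m) (Fin m) F) (x : Fin m ⊕ Fin m) (z : Fin m) :
    (G * fromBlocks A B C D) x (Sum.inl z) =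
      ∑ j, G x (Sum.inl j) * A j z + ∑ k, G x (Sum.inr k) * C k z := by
  rw [Matrix.mul_apply, Fintype.sum_sum_type]
  rfl

theorem mul_fromBlocks_inr (G : Matrix (Fin m ⊕ Fin m) (Fin m ⊕ Fin m) F)
    (A B C D : Matrix (Fin m) (Fin m) F) (x : Fin m ⊕ Fin m) (z : Fin m) :
    (G * fromBlocks A B C D) x (Sum.inr z) =
      ∑ j, G x (Sum.inl j) * B j z + ∑ k, G x (Sum.inr k) * D k z := by
  rw [Matrix.mul_apply, Fintype.sum_sum_type]
  rfl

theorem inv_T {p q : Fin m} (hpq : p ≠ q) (b : F) :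
    ((1 + Matrix.single p q b : Matrix (Fin m) (Fin m) F)ᵀ)⁻¹ = 1 - Matrix.single q p b := by
  apply Matrix.inv_eq_right_inv
  rw [Matrix.transpose_add, Matrix.transpose_one, Matrix.transpose_single, Matrix.add_mul,
    Matrix.one_mul, Matrix.mul_sub, Matrix.mul_one,
    Matrix.single_mul_single_of_ne b q p q hpq b, sub_zero, sub_add_cancel]

theorem sum_one_add_single (c : Fin m → F) (p q z : Fin m) (b : F) :
    ∑ k, c k * (1 + Matrix.single p q b : Matrix (Fin m) (Fin m) F) k z =
      c z + if q = z then c p * b else 0 := by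
  simp only [Matrix.add_apply, mul_add, Finset.sum_add_distrib, Matrix.one_apply,
    Matrix.single_apply, mul_ite, mul_one, mul_zero, Finset.sum_ite_eq', Finset.mem_univ,
    if_true]
  congr 1
  by_cases hq : q = z
  · rw [if_pos hq, Finset.sum_eq_single p]
    · rw [if_pos ⟨rfl, hq⟩]
    · intro k _ hk
      rw [if_neg (fun hh => hk hh.1.symm)]
    · intro hh; exact absurd (Finset.mem_univ _) hh
  · rw [if_neg hq]
    apply Finset.sum_eq_zero
    intro k _
    rw [if_neg (fun hh => hq hh.2)]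

theorem sum_one_sub_single (c : Fin m → F) (p q z : Fin m) (b : F) :
    ∑ k, c k * (1 - Matrix.single p q b : Matrix (Fin m) (Fin m) F) k z =
      c z - if q = z then c p * b else 0 := by
  have h := sum_one_add_single c p q z (-b)
  have e : (1 - Matrix.single p q b : Matrix (Fin m) (Fin m) F) = 1 + Matrix.single p q (-b) := by
    rw [sub_eq_add_neg]
    congr 1
    ext i j
    show -(if p = i ∧ q = j then b else 0) = if p = i ∧ q = j then -b else 0
    split_ifs <;> simp
  rw [e, h]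
  by_cases hq : q = z
  · rw [if_pos hq, if_pos hq]; ring
  · rw [if_neg hq, if_neg hq]; ring

theorem main : NormTri1.{u} := by
  intro m F _ _ hm g0 h
  obtain ⟨G, hG⟩ : ∃ G : Matrix (Fin m ⊕ Fin m) (Fin m ⊕ Fin m) F,
      G = (g0 : Matrix (Fin m ⊕ Fin m) (Fin m ⊕ Fin m) F) := ⟨_, rfl⟩
  -- (A) lower-right block is lower triangular
  have hA : ∀ n : ℕ, ∀ i' i : Fin m, (i' : ℕ) = n → i' < i → G (Sum.inr i') (Sum.inr i) = 0 := by
    intro n
    induction n using Nat.strong_induction_on with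
    | _ n ih =>
      intro i' i hn hlt
      have hut := isUT_one_add_single hlt (1 : F)
      obtain ⟨W, hW, hWe⟩ := conj_eq g0 h
        (mk_mem (1 + Matrix.single i' i (1 : F)) 0 hut Matrix.isSymm_zero)
      rw [← hG] at hWe
      have h1 := congrFun (congrFun hWe (Sum.inr i')) (Sum.inr i')
      have hl : (G * (mkMat (1 + Matrix.single i' i (1 : F)) (0 : Matrix (Fin m) (Fin m) F))) (Sum.inr i') (Sum.inr i') =
          G (Sum.inr i') (Sum.inr i') - G (Sum.inr i') (Sum.inr i) := by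
        unfold mkMat
        rw [mul_fromBlocks_inr, inv_T (ne_of_lt hlt), Matrix.zero_mul,
          sum_one_sub_single (fun k => G (Sum.inr i') (Sum.inr k)) i i' i' 1, if_pos rfl, mul_one]
        simp
      have hr : ((W : Matrix (Fin m ⊕ Fin m) (Fin m ⊕ Fin m) F) * G) (Sum.inr i') (Sum.inr i') =
          G (Sum.inr i') (Sum.inr i') := by
        rw [Matrix.mul_apply]
        exact rowsum_inr hW i' (fun t => G t (Sum.inr i'))
          (fun k hk => ih (k : ℕ) (by rw [← hn]; exact hk) k i' rfl hk)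
      have h2 : G (Sum.inr i') (Sum.inr i') - G (Sum.inr i') (Sum.inr i) =
          G (Sum.inr i') (Sum.inr i') := hl.symm.trans (h1.trans hr)
      have h3 : G (Sum.inr i') (Sum.inr i) = G (Sum.inr i') (Sum.inr i') -
          (G (Sum.inr i') (Sum.inr i') - G (Sum.inr i') (Sum.inr i)) := by ring
      rw [h3, h2, sub_self]
  have hA' : ∀ i' i : Fin m, i' < i → G (Sum.inr i') (Sum.inr i) = 0 :=
    fun i' i hlt => hA _ i' i rfl hlt
  -- (B) lower-left block vanishes
  have hB : ∀ k j : Fin m, G (Sum.inr k) (Sum.inl j) = 0 := by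
    intro k j
    obtain ⟨s, hs⟩ : ∃ s : Matrix (Fin m) (Fin m) F, s = Matrix.of (fun a b =>
        if (a = j ∧ b = k) ∨ (a = k ∧ b = j) then (1 : F) else 0) := ⟨_, rfl⟩
    have hsym : s.IsSymm := by
      rw [hs]
      ext a b
      show (if (b = j ∧ a = k) ∨ (b = k ∧ a = j) then (1 : F) else 0) =
        if (a = j ∧ b = k) ∨ (a = k ∧ b = j) then (1 : F) else 0
      by_cases hh : (a = j ∧ b = k) ∨ (a = k ∧ b = j)
      · rw [if_pos hh, if_pos (by tauto)]
      · rw [if_neg hh, if_neg (by tauto)]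
    obtain ⟨W, hW, hWe⟩ := conj_eq g0 h (mk_mem (1 : Matrix (Fin m) (Fin m) F) s isUT_one hsym)
    rw [← hG] at hWe
    have h1 := congrFun (congrFun hWe (Sum.inr k)) (Sum.inr k)
    have hl : (G * (mkMat (1 : Matrix (Fin m) (Fin m) F) s)) (Sum.inr k) (Sum.inr k) =
        G (Sum.inr k) (Sum.inl j) + G (Sum.inr k) (Sum.inr k) := by
      unfold mkMat
      rw [mul_fromBlocks_inr, Matrix.transpose_one, inv_one, Matrix.mul_one]
      congr 1
      · rw [Finset.sum_eq_single j]
        · have : s j k = 1 := by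
            rw [hs]
            exact if_pos (Or.inl ⟨rfl, rfl⟩)
          rw [this, mul_one]
        · intro j' _ hj'
          have : s j' k = 0 := by
            rw [hs]
            apply if_neg
            rintro (⟨h', -⟩ | ⟨h1', h2'⟩)
            · exact hj' h'
            · exact hj' (h1'.trans h2')
          rw [this, mul_zero]
        · intro hh; exact absurd (Finset.mem_univ _) hh
      · simp [Matrix.one_apply]
    have hr : ((W : Matrix (Fin m ⊕ Fin m) (Fin m ⊕ Fin m) F) * G) (Sum.inr k) (Sum.inr k) =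
        G (Sum.inr k) (Sum.inr k) := by
      rw [Matrix.mul_apply]
      exact rowsum_inr hW k (fun t => G t (Sum.inr k)) (fun k' hk' => hA' k' k hk')
    have h2 : G (Sum.inr k) (Sum.inl j) + G (Sum.inr k) (Sum.inr k) =
        G (Sum.inr k) (Sum.inr k) := hl.symm.trans (h1.trans hr)
    exact add_eq_right.1 h2
  -- (C) upper-left block is upper triangular
  have hC : ∀ n : ℕ, ∀ i j : Fin m, m - (i : ℕ) = n → j < i → G (Sum.inl i) (Sum.inl j) = 0 := by
    intro n
    induction n using Nat.strong_induction_on with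
    | _ n ih =>
      intro i j hn hlt
      have hut := isUT_one_add_single hlt (1 : F)
      obtain ⟨W, hW, hWe⟩ := conj_eq g0 h
        (mk_mem (1 + Matrix.single j i (1 : F)) 0 hut Matrix.isSymm_zero)
      rw [← hG] at hWe
      have h1 := congrFun (congrFun hWe (Sum.inl i)) (Sum.inl i)
      have hl : (G * (mkMat (1 + Matrix.single j i (1 : F)) (0 : Matrix (Fin m) (Fin m) F))) (Sum.inl i) (Sum.inl i) =
          G (Sum.inl i) (Sum.inl i) + G (Sum.inl i) (Sum.inl j) := by
        unfold mkMat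
        rw [mul_fromBlocks_inl,
          sum_one_add_single (fun k => G (Sum.inl i) (Sum.inl k)) j i i 1, if_pos rfl, mul_one]
        simp
      have hr : ((W : Matrix (Fin m ⊕ Fin m) (Fin m ⊕ Fin m) F) * G) (Sum.inl i) (Sum.inl i) =
          G (Sum.inl i) (Sum.inl i) := by
        rw [Matrix.mul_apply]
        refine rowsum_inl hW i (fun t => G t (Sum.inl i)) (fun k hk => ?_) (fun k => hB k i)
        have hki : (i : ℕ) < (k : ℕ) := hk
        have hkm : (k : ℕ) < m := k.2
        exact ih (m - (k : ℕ)) (by omega) k i rfl hk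
      have h2 : G (Sum.inl i) (Sum.inl i) + G (Sum.inl i) (Sum.inl j) =
          G (Sum.inl i) (Sum.inl i) := hl.symm.trans (h1.trans hr)
      exact add_eq_left.1 h2
  rw [← hG]
  refine ⟨?_, fun i j hji => hC _ i j rfl hji⟩
  ext k j
  exact hB k j

end Cfsg.Agent.Lib.Helper64.SpNT1
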