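import Mathlib
import Cfsg.Agent.Lib.Helper44.TPStmt
import Cfsg.Agent.Lib.Helper44.NegPairs

/-!
# S5973 piece PAIRE (call by helper44): Chevalley–Warning route, all characteristics

Two orthogonal invariant nondegenerate blocks `B₁`, `B₂` of finrank `i` (even) killed by the same
irreducible `P`: `M = B₁ ⊔ B₂` contains an invariant totally singular subspace of finrank `i`.

Adapted from `Helper34.TSPAIRE` (odd `q`).  With `e = i / 2`, `t k = β (x^k w, w)`:
* `2 ≠ 0`: the `e` equations `t k = 0`, `k < e`; then `(P(0) + 1) t e = 0` and `P(0) ≠ -1`;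
* `2 = 0`: the `e` equations `t k = 0`, `1 ≤ k ≤ e`; `t 0 = 2 Q w = 0` is automatic.
Then `t k = 0` for all `k`, so `β = 0` on the cyclic span `U` of `w`; `Q = 0` on `U` because
`x - 1` is bijective on `U` and `Q ((x - 1) u) = β (u, u) - β (x u, u)`.
-/

set_option autoImplicit false

universe u

open scoped Matrix

namespace Cfsg.Agent.Lib.Helper64.TPPAIRE

open Cfsg.Agent.Lib.Helper37.HypStmt (cc IPos)
open Cfsg.Agent.Lib.Helper44.TSStmt (Fac NumTypes)
open Cfsg.Agent.Lib.Helper44.TPStmt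
open Cfsg.Agent.Lib.Helper44.NegPairs (plusQ)

theorem mem_Fx' {F : Type u} [Field F] {d : ℕ} (x : Matrix (J d) (J d) F) (v : J d → F) :
    v ∈ Fx x ↔ x *ᵥ v = v := by
  unfold Fx
  rw [LinearMap.mem_ker, LinearMap.sub_apply, Matrix.toLin'_apply, LinearMap.id_apply, sub_eq_zero]

/-- the constant coefficient of a monic irreducible factor of even degree of the `r`-th
cyclotomic polynomial (`r` odd, characteristic not `2`) is not `-1` -/
theorem coeff_zero_ne {F : Type u} [Field F] (r : ℕ) (hr : Odd r) (h2 : (2 : F) ≠ 0)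
    (P : Polynomial F) (hPm : P.Monic) (hPi : Irreducible P)
    (hdvd : P ∣ Polynomial.cyclotomic r F) (heven : Even P.natDegree) : P.coeff 0 ≠ -1 := by
  intro h
  have hfact : Fact (Irreducible P) := ⟨hPi⟩
  have hP0 : P ≠ 0 := hPi.ne_zero
  have hnorm := Algebra.PowerBasis.norm_gen_eq_coeff_zero_minpoly (AdjoinRoot.powerBasis hP0)
  have hmin : minpoly F (AdjoinRoot.root P) = P := by
    rw [AdjoinRoot.minpoly_root hP0, hPm.leadingCoeff, inv_one, map_one, mul_one]
  rw [AdjoinRoot.powerBasis_gen hP0, AdjoinRoot.powerBasis_dim hP0, hmin, heven.neg_one_pow,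
    one_mul, h] at hnorm
  have hroot : (AdjoinRoot.root P) ^ r = 1 := by
    have h1 : P ∣ Polynomial.X ^ r - 1 := hdvd.trans (Polynomial.cyclotomic.dvd_X_pow_sub_one r F)
    have h3 := AdjoinRoot.mk_eq_zero.2 h1
    rw [map_sub, map_pow, AdjoinRoot.mk_X, map_one, sub_eq_zero] at h3
    exact h3
  have h4 : (Algebra.norm F (AdjoinRoot.root P)) ^ r = 1 := by
    rw [← map_pow, hroot, map_one]
  rw [hnorm, hr.neg_one_pow] at h4
  apply h2
  linear_combination (-1 : F) * h4

theorem polar_sum_sum {F : Type u} [Field F] {V : Type u} [AddCommGroup V] [Module F V]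
    (Q : QuadraticForm F V) {ι : Type} (s : Finset ι) (c : ι → F) (u : ι → V)
    (g : V →ₗ[F] V) :
    QuadraticMap.polar Q (g (∑ a ∈ s, c a • u a)) (∑ a ∈ s, c a • u a) =
      ∑ a ∈ s, ∑ a' ∈ s, c a * (c a' * QuadraticMap.polar Q (g (u a)) (u a')) := by
  simp only [map_sum, map_smul, ← QuadraticMap.polarBilin_apply_apply, LinearMap.sum_apply,
    LinearMap.smul_apply, smul_eq_mul, Finset.mul_sum]
  rw [Finset.sum_comm]
  refine Finset.sum_congr rfl fun a _ => Finset.sum_congr rfl fun a' _ => ?_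
  ring

/-- the core: a nonzero vector of `M` whose cyclic span is totally isotropic -/
theorem core {F : Type u} [Field F] [Fintype F] (p : ℕ) [Fact p.Prime] [CharP F p]
    {V : Type u} [AddCommGroup V] [Module F V] [FiniteDimensional F V] (Q : QuadraticForm F V)
    (f : V →ₗ[F] V) (hiso : ∀ v, Q (f v) = Q v)
    (M : Submodule F V) (P : Polynomial F) (hPm : P.Monic) (e : ℕ) (he : 0 < e)
    (hdeg : P.natDegree = 2 * e) (hc0 : P.coeff 0 ≠ -1 ∨ (2 : F) = 0)
    (hkill : ∀ v ∈ M, (Polynomial.aeval f P) v = 0)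
    (hfin : 2 * e < Module.finrank F M) :
    ∃ w ∈ M, w ≠ 0 ∧ ∀ a b : ℕ, QuadraticMap.polar Q ((f ^ a) w) ((f ^ b) w) = 0 := by
  classical
  obtain ⟨δ, hδ⟩ : ∃ δ : ℕ, (δ = 0 ∧ P.coeff 0 ≠ -1) ∨ (δ = 1 ∧ (2 : F) = 0) := by
    rcases hc0 with h | h
    · exact ⟨0, Or.inl ⟨rfl, h⟩⟩
    · exact ⟨1, Or.inr ⟨rfl, h⟩⟩
  obtain ⟨n, hn⟩ : ∃ n, n = Module.finrank F M := ⟨_, rfl⟩
  let b : Module.Basis (Fin n) F M := Module.finBasisOfFinrankEq F M hn.symm
  let pk : ℕ → MvPolynomial (Fin n) F := fun k =>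
    ∑ a, ∑ a', MvPolynomial.C (QuadraticMap.polar Q ((f ^ (k + δ)) (b a : V)) (b a' : V)) *
      MvPolynomial.X a * MvPolynomial.X a'
  have hev : ∀ k (c : Fin n → F), MvPolynomial.eval c (pk k) =
      QuadraticMap.polar Q ((f ^ (k + δ)) (∑ a, c a • (b a : V))) (∑ a, c a • (b a : V)) := by
    intro k c
    rw [polar_sum_sum]
    simp only [pk, map_sum, map_mul, MvPolynomial.eval_C, MvPolynomial.eval_X]
    refine Finset.sum_congr rfl fun a _ => Finset.sum_congr rfl fun a' _ => ?_
    ring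
  have hdegk : ∀ k, (pk k).totalDegree ≤ 2 := by
    intro k
    refine MvPolynomial.totalDegree_finsetSum_le fun a _ =>
      MvPolynomial.totalDegree_finsetSum_le fun a' _ => ?_
    refine (MvPolynomial.totalDegree_mul _ _).trans ?_
    refine (add_le_add (MvPolynomial.totalDegree_mul _ _) le_rfl).trans ?_
    rw [MvPolynomial.totalDegree_C, MvPolynomial.totalDegree_X, MvPolynomial.totalDegree_X]
  have hsum : ∑ k ∈ Finset.range e, (pk k).totalDegree < Fintype.card (Fin n) := by
    rw [Fintype.card_fin]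
    calc ∑ k ∈ Finset.range e, (pk k).totalDegree
        ≤ ∑ k ∈ Finset.range e, 2 := Finset.sum_le_sum fun k _ => hdegk k
      _ = 2 * e := by simp [mul_comm]
      _ < n := by rw [hn]; exact hfin
  have hcw := char_dvd_card_solutions_of_sum_lt p hsum
  have h0 : ∀ k ∈ Finset.range e, MvPolynomial.eval (0 : Fin n → F) (pk k) = 0 := by
    intro k _
    rw [hev]
    simp
  have hcard : 1 < Fintype.card
      {c : Fin n → F // ∀ k ∈ Finset.range e, MvPolynomial.eval c (pk k) = 0} := by
    have hpos : 0 < Fintype.card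
        {c : Fin n → F // ∀ k ∈ Finset.range e, MvPolynomial.eval c (pk k) = 0} :=
      Fintype.card_pos_iff.2 ⟨⟨0, h0⟩⟩
    have h1 := Nat.le_of_dvd hpos hcw
    have h2 := (Fact.out : p.Prime).two_le
    omega
  obtain ⟨⟨c, hc⟩, hne⟩ := Fintype.exists_ne_of_one_lt_card hcard ⟨0, h0⟩
  have hcne : c ≠ 0 := fun h => hne (Subtype.ext h)
  obtain ⟨w, hw⟩ : ∃ w : V, w = ∑ a, c a • (b a : V) := ⟨_, rfl⟩
  have hwM : w ∈ M := by
    rw [hw]
    exact Submodule.sum_mem _ fun a _ => Submodule.smul_mem _ _ (b a).2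
  have hw0 : w ≠ 0 := by
    intro h
    apply hcne
    have h' : ∑ a, c a • b a = 0 := by
      apply Subtype.ext
      rw [Submodule.coe_sum]
      simp only [Submodule.coe_smul, ZeroMemClass.coe_zero]
      rw [← hw, h]
    funext a
    exact Fintype.linearIndependent_iff.1 b.linearIndependent c h' a
  have hlow : ∀ k, k < e → QuadraticMap.polar Q ((f ^ (k + δ)) w) w = 0 := by
    intro k hk
    have h := hc k (Finset.mem_range.2 hk)
    rw [hev, ← hw] at h
    exact h
  have hpol : ∀ u v, QuadraticMap.polar Q (f u) (f v) = QuadraticMap.polar Q u v := by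
    intro u v
    unfold QuadraticMap.polar
    rw [← map_add, hiso, hiso, hiso]
  have hshift : ∀ c a b, QuadraticMap.polar Q ((f ^ (a + c)) w) ((f ^ (b + c)) w) =
      QuadraticMap.polar Q ((f ^ a) w) ((f ^ b) w) := by
    intro c
    induction c with
    | zero => intro a b; rfl
    | succ c ih =>
      intro a b
      rw [← add_assoc, ← add_assoc, pow_succ', pow_succ', Module.End.mul_apply,
        Module.End.mul_apply, hpol, ih]
  have hT1 : ∀ a b, b ≤ a → QuadraticMap.polar Q ((f ^ a) w) ((f ^ b) w) =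
      QuadraticMap.polar Q ((f ^ (a - b)) w) w := by
    intro a b hab
    have h := hshift b (a - b) 0
    rw [Nat.sub_add_cancel hab, zero_add] at h
    rw [h, pow_zero, Module.End.one_apply]
  have hT2 : ∀ a b, a ≤ b → QuadraticMap.polar Q ((f ^ a) w) ((f ^ b) w) =
      QuadraticMap.polar Q ((f ^ (b - a)) w) w := by
    intro a b hab
    rw [QuadraticMap.polar_comm, hT1 b a hab]
  have hPw : (Polynomial.aeval f P) w = 0 := hkill w hwM
  have hrel : ∀ m s, ∑ j ∈ Finset.range (P.natDegree + 1),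
      P.coeff j * QuadraticMap.polar Q ((f ^ (j + m)) w) ((f ^ s) w) = 0 := by
    intro m s
    have h1 : (f ^ m) ((Polynomial.aeval f P) w) = 0 := by rw [hPw, map_zero]
    rw [Polynomial.aeval_eq_sum_range, LinearMap.sum_apply, map_sum] at h1
    have h2 : QuadraticMap.polar Q
        (∑ j ∈ Finset.range (P.natDegree + 1), (f ^ m) ((P.coeff j • f ^ j) w)) ((f ^ s) w) = 0 := by
      rw [h1]; simp
    rw [← QuadraticMap.polarBilin_apply_apply, map_sum, LinearMap.sum_apply] at h2
    rw [← h2]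
    refine Finset.sum_congr rfl fun j _ => ?_
    rw [LinearMap.smul_apply, map_smul, map_smul, LinearMap.smul_apply, smul_eq_mul,
      QuadraticMap.polarBilin_apply_apply, ← Module.End.mul_apply, ← pow_add, add_comm m j]
  have hle : ∀ k, k ≤ e → QuadraticMap.polar Q ((f ^ k) w) w = 0 := by
    intro k hk
    rcases hδ with ⟨hδ0, hcc⟩ | ⟨hδ1, h2⟩
    · subst hδ0
      have hlow0 : ∀ k, k < e → QuadraticMap.polar Q ((f ^ k) w) w = 0 := fun k hk => hlow k hk
      rcases Nat.lt_or_ge k e with hk' | hk'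
      · exact hlow0 k hk'
      · have hke : k = e := le_antisymm hk hk'
        rw [hke]
        have h := hrel 0 e
        rw [hdeg] at h
        obtain ⟨e', he'⟩ : ∃ e', 2 * e = e' + 1 := ⟨2 * e - 1, by omega⟩
        rw [he', Finset.sum_range_succ, Finset.sum_range_succ'] at h
        have hmid : ∑ j ∈ Finset.range e',
            P.coeff (j + 1) * QuadraticMap.polar Q ((f ^ (j + 1 + 0)) w) ((f ^ e) w) = 0 := by
          refine Finset.sum_eq_zero fun j hj => ?_
          have hj' := Finset.mem_range.1 hj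
          rcases le_total (j + 1) e with h' | h'
          · rw [add_zero, hT2 _ _ h', hlow0 _ (by omega), mul_zero]
          · rw [add_zero, hT1 _ _ h', hlow0 _ (by omega), mul_zero]
        have hlead : P.coeff (e' + 1) = 1 := by
          rw [← he', ← hdeg]; exact hPm.coeff_natDegree
        rw [hmid, zero_add, hlead, one_mul, add_zero, add_zero, hT2 0 e (Nat.zero_le _),
          hT1 (e' + 1) e (by omega)] at h
        have e1 : e' + 1 - e = e := by omega
        rw [e1, Nat.sub_zero] at h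
        have h5 : (P.coeff 0 + 1) * QuadraticMap.polar Q ((f ^ e) w) w = 0 := by
          linear_combination h
        rcases mul_eq_zero.1 h5 with h' | h'
        · exact absurd (by linear_combination h') hcc
        · exact h'
    · subst hδ1
      rcases Nat.eq_zero_or_pos k with hk0 | hk0
      · rw [hk0, pow_zero, Module.End.one_apply, QuadraticMap.polar_self, two_smul, ← two_mul,
          h2, zero_mul]
      · have h := hlow (k - 1) (by omega)
        rwa [Nat.sub_add_cancel hk0] at h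
  have ht : ∀ k, QuadraticMap.polar Q ((f ^ k) w) w = 0 := by
    intro k
    induction k using Nat.strong_induction_on with
    | _ k ih =>
      rcases Nat.lt_or_ge e k with hk | hk
      · have h := hrel (k - P.natDegree) (P.natDegree - k)
        rw [Finset.sum_range_succ] at h
        have hmid : ∑ j ∈ Finset.range P.natDegree,
            P.coeff j * QuadraticMap.polar Q ((f ^ (j + (k - P.natDegree))) w)
              ((f ^ (P.natDegree - k)) w) = 0 := by
          refine Finset.sum_eq_zero fun j hj => ?_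
          have hj' := Finset.mem_range.1 hj
          rcases le_total (j + (k - P.natDegree)) (P.natDegree - k) with h' | h'
          · rw [hT2 _ _ h', ih _ (by omega), mul_zero]
          · rw [hT1 _ _ h', ih _ (by omega), mul_zero]
        rw [hmid, zero_add, hPm.coeff_natDegree, one_mul, hT1 _ _ (by omega)] at h
        have e1 : P.natDegree + (k - P.natDegree) - (P.natDegree - k) = k := by omega
        rw [e1] at h
        exact h
      · exact hle k hk
  refine ⟨w, hwM, hw0, fun a b => ?_⟩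
  rcases le_total a b with h | h
  · rw [hT2 _ _ h, ht]
  · rw [hT1 _ _ h, ht]

/-- [PAIRE] -/
theorem main (hIPos : IPos.{u}) (hInv : InvDim.{u}) (hOrth : OrthSum.{u}) (hHalf : TsHalf.{u}) :
    PairE.{u} := by
  intro F _ _ p _ _ d r _ hr2 hrp heven x hx hxr P hP B₁ B₂ hS1 hS2 hN1 hN2 hF1 hF2 hd1 hd2
    horth hK1 hK2
  classical
  have hipos : 0 < orderOf ((Fintype.card F : ℕ) : ZMod r) := hIPos F p r hrp
  obtain ⟨e, he⟩ := heven
  have hepos : 0 < e := by omega
  have hrodd : Odd r := (Fact.out : r.Prime).eq_two_or_odd'.resolve_left hr2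
  obtain ⟨hPm, hPirr, hPdvd⟩ := hP
  have hdegi : P.natDegree = orderOf ((Fintype.card F : ℕ) : ZMod r) := by
    obtain ⟨n, hp, hcard⟩ := FiniteField.card F p
    have hcop : p.Coprime r :=
      (Nat.coprime_primes (Fact.out : p.Prime) (Fact.out : r.Prime)).2 (Ne.symm hrp)
    have h1 := Polynomial.natDegree_of_dvd_cyclotomic_of_irreducible (K := F) (p := p)
      (f := (n : ℕ)) (n := r) hcard hcop hPdvd hPirr
    rw [h1, ← orderOf_units, ZMod.coe_unitOfCoprime, hcard]
  have hdeg : P.natDegree = 2 * e := by rw [hdegi, he]; omega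
  have hc0 : P.coeff 0 ≠ -1 ∨ (2 : F) = 0 := by
    by_cases h2 : (2 : F) = 0
    · exact Or.inr h2
    · exact Or.inl
        (coeff_zero_ne r hrodd h2 P hPm hPirr hPdvd (by rw [hdeg]; exact even_two_mul e))
  obtain ⟨f, hf⟩ : ∃ f : (J d → F) →ₗ[F] (J d → F),
      f = Matrix.toLin' (x : Matrix (J d) (J d) F) := ⟨_, rfl⟩
  have hfx : ∀ v, f v = (x : Matrix (J d) (J d) F) *ᵥ v := by
    intro v; rw [hf, Matrix.toLin'_apply]
  have hiso : ∀ v, plusQ d F (f v) = plusQ d F v := by
    intro v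
    rw [hfx]
    exact hx v v
  have hS1' : ∀ v ∈ B₁, f v ∈ B₁ := by
    intro v hv
    rw [hf]
    exact hS1 (Submodule.mem_map_of_mem hv)
  have hS2' : ∀ v ∈ B₂, f v ∈ B₂ := by
    intro v hv
    rw [hf]
    exact hS2 (Submodule.mem_map_of_mem hv)
  obtain ⟨hNM, hinf, hfinM⟩ := hOrth F d B₁ B₂ hN1 hN2 horth
  have hStabM : ∀ v ∈ B₁ ⊔ B₂, f v ∈ B₁ ⊔ B₂ := by
    intro v hv
    obtain ⟨u1, hu1, u2, hu2, rfl⟩ := Submodule.mem_sup.1 hv
    rw [map_add]
    exact Submodule.add_mem _ (Submodule.mem_sup_left (hS1' u1 hu1))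
      (Submodule.mem_sup_right (hS2' u2 hu2))
  have hkill : ∀ v ∈ B₁ ⊔ B₂, (Polynomial.aeval f P) v = 0 := by
    intro v hv
    obtain ⟨u1, hu1, u2, hu2, rfl⟩ := Submodule.mem_sup.1 hv
    have e1 := hK1 u1 hu1
    have e2 := hK2 u2 hu2
    rw [← hf] at e1 e2
    rw [map_add, e1, e2, add_zero]
  have hMFx : (B₁ ⊔ B₂) ⊓ Fx (x : Matrix (J d) (J d) F) = ⊥ := by
    rw [eq_bot_iff]
    rintro v ⟨hv, hvF⟩
    obtain ⟨u1, hu1, u2, hu2, rfl⟩ := Submodule.mem_sup.1 hv
    have hfix : f (u1 + u2) = u1 + u2 := by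
      rw [hfx]
      exact (mem_Fx' _ _).1 hvF
    rw [map_add] at hfix
    have hz : f u1 - u1 = u2 - f u2 := sub_eq_sub_iff_add_eq_add.2 (by rw [hfix, add_comm])
    have hz1 : f u1 - u1 ∈ B₁ := Submodule.sub_mem _ (hS1' u1 hu1) hu1
    have hz2 : f u1 - u1 ∈ B₂ := by
      rw [hz]; exact Submodule.sub_mem _ hu2 (hS2' u2 hu2)
    have hz0 : f u1 - u1 = 0 := by
      have : f u1 - u1 ∈ B₁ ⊓ B₂ := ⟨hz1, hz2⟩
      rw [hinf] at this
      exact (Submodule.mem_bot F).1 this
    have hu1F : u1 ∈ B₁ ⊓ Fx (x : Matrix (J d) (J d) F) := by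
      refine ⟨hu1, (mem_Fx' _ _).2 ?_⟩
      rw [← hfx]
      exact sub_eq_zero.1 hz0
    have hu2F : u2 ∈ B₂ ⊓ Fx (x : Matrix (J d) (J d) F) := by
      refine ⟨hu2, (mem_Fx' _ _).2 ?_⟩
      rw [← hfx]
      rw [hz0] at hz
      exact (sub_eq_zero.1 hz.symm).symm
    rw [hF1] at hu1F
    rw [hF2] at hu2F
    rw [(Submodule.mem_bot F).1 hu1F, (Submodule.mem_bot F).1 hu2F, add_zero]
    exact Submodule.zero_mem _
  have hfinM' : 2 * e < Module.finrank F ↥(B₁ ⊔ B₂) := by
    rw [hfinM, hd1, hd2, he]; omega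
  obtain ⟨w, hwM, hw0, hw⟩ := core p (plusQ d F) f hiso (B₁ ⊔ B₂) P hPm e hepos hdeg hc0 hkill hfinM'
  obtain ⟨U, hU⟩ : ∃ U : Submodule F (J d → F),
      U = Submodule.span F (Set.range fun k : ℕ => (f ^ k) w) := ⟨_, rfl⟩
  have hwU : w ∈ U := by
    rw [hU]
    exact Submodule.subset_span ⟨0, by
      show (f ^ 0) w = w
      rw [pow_zero, Module.End.one_apply]⟩
  have hUM : U ≤ B₁ ⊔ B₂ := by
    rw [hU, Submodule.span_le]
    rintro _ ⟨k, rfl⟩
    show (f ^ k) w ∈ B₁ ⊔ B₂
    induction k with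
    | zero => rw [pow_zero, Module.End.one_apply]; exact hwM
    | succ k ih =>
      rw [pow_succ', Module.End.mul_apply]
      exact hStabM _ ih
  have hStabU : Stab (x : Matrix (J d) (J d) F) U := by
    show Submodule.map (Matrix.toLin' (x : Matrix (J d) (J d) F)) U ≤ U
    rw [← hf, hU, Submodule.map_span, Submodule.span_le]
    rintro _ ⟨_, ⟨k, rfl⟩, rfl⟩
    apply Submodule.subset_span
    exact ⟨k + 1, by
      show (f ^ (k + 1)) w = f ((f ^ k) w)
      rw [pow_succ', Module.End.mul_apply]⟩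
  have hfU : ∀ u ∈ U, f u ∈ U := by
    intro u hu
    rw [hf]
    exact hStabU (Submodule.mem_map_of_mem hu)
  have hpolU1 : ∀ b : ℕ, ∀ u ∈ U, QuadraticMap.polar (plusQ d F) u ((f ^ b) w) = 0 := by
    intro b u hu
    rw [hU] at hu
    induction hu using Submodule.span_induction with
    | mem u hu =>
      obtain ⟨a, rfl⟩ := hu
      exact hw a b
    | zero => simp
    | add u v _ _ hu hv => rw [QuadraticMap.polar_add_left, hu, hv, add_zero]
    | smul c u _ hu => rw [QuadraticMap.polar_smul_left, hu, smul_zero]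
  have hpolU : ∀ u ∈ U, ∀ v ∈ U, QuadraticMap.polar (plusQ d F) u v = 0 := by
    intro u hu v hv
    rw [hU] at hv
    induction hv using Submodule.span_induction with
    | mem v hv =>
      obtain ⟨a, rfl⟩ := hv
      exact hpolU1 a u hu
    | zero => simp
    | add v v' _ _ hv hv' => rw [QuadraticMap.polar_add_right, hv, hv', add_zero]
    | smul c v _ hv => rw [QuadraticMap.polar_smul_right, hv, smul_zero]
  have hUFx : U ⊓ Fx (x : Matrix (J d) (J d) F) = ⊥ :=
    eq_bot_iff.2 (le_trans (inf_le_inf_right _ hUM) hMFx.le)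
  -- `f - 1` is bijective on `U`
  have hsurj : ∀ u ∈ U, ∃ u' ∈ U, f u' - u' = u := by
    let g : ↥U →ₗ[F] ↥U := (f - LinearMap.id).restrict (p := U) (q := U) (fun u hu => by
      rw [LinearMap.sub_apply, LinearMap.id_apply]
      exact Submodule.sub_mem _ (hfU u hu) hu)
    have hginj : Function.Injective g := by
      rw [← LinearMap.ker_eq_bot, eq_bot_iff]
      intro u hu
      rw [LinearMap.mem_ker] at hu
      have h1 : ((g u : ↥U) : J d → F) = 0 := by rw [hu]; rfl
      have h2 : f (u : J d → F) - (u : J d → F) = 0 := h1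
      have h3 : (u : J d → F) ∈ U ⊓ Fx (x : Matrix (J d) (J d) F) := by
        refine ⟨u.2, (mem_Fx' _ _).2 ?_⟩
        rw [← hfx]
        exact sub_eq_zero.1 h2
      rw [hUFx] at h3
      rw [Submodule.mem_bot]
      exact Subtype.ext ((Submodule.mem_bot F).1 h3)
    have hgsurj : Function.Surjective g := LinearMap.injective_iff_surjective.1 hginj
    intro u hu
    obtain ⟨u', hu'⟩ := hgsurj ⟨u, hu⟩
    refine ⟨u', u'.2, ?_⟩
    have h1 : ((g u' : ↥U) : J d → F) = u := by rw [hu']
    exact h1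
  have hTS : TSub d F U := by
    intro u hu
    obtain ⟨u', hu'U, rfl⟩ := hsurj u hu
    have h1 := hpolU u' hu'U u' hu'U
    have h2 := hpolU (f u') (hfU u' hu'U) u' hu'U
    rw [QuadraticMap.polar_self, two_smul] at h1
    have h3 : plusQ d F (f u' - u') = plusQ d F (f u') + plusQ d F u'
        - QuadraticMap.polar (plusQ d F) (f u') u' := by
      have h4 : QuadraticMap.polar (plusQ d F) (f u') (-u') =
          - QuadraticMap.polar (plusQ d F) (f u') u' := QuadraticMap.polar_neg_right _ _ _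
      have h5 : plusQ d F (-u') = plusQ d F u' := QuadraticMap.map_neg _ _
      unfold QuadraticMap.polar at h4
      rw [← sub_eq_add_neg, h5] at h4
      unfold QuadraticMap.polar
      linear_combination h4
    have h6 : plusQ d F (f u' - u') = 0 := by
      rw [h3, hiso, h2, h1, sub_zero]
    exact h6
  have hdvd := hInv F p d r hrp x hxr U hStabU hUFx
  have hle := hHalf F d (B₁ ⊔ B₂) U hNM hUM hTS
  have hpos : 0 < Module.finrank F ↥U := by
    apply Nat.pos_of_ne_zero
    intro h
    rw [Submodule.finrank_eq_zero] at h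
    rw [h] at hwU
    exact hw0 ((Submodule.mem_bot F).1 hwU)
  refine ⟨U, hUM, hStabU, hTS, ?_⟩
  have h1 := Nat.le_of_dvd hpos hdvd
  rw [hfinM, hd1, hd2] at hle
  omega

end Cfsg.Agent.Lib.Helper64.TPPAIRE
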