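import Mathlib
import Cfsg.Agent.Lib.Helper41.TMStmt
import Cfsg.Agent.Lib.Helper44.NegPairs
import Cfsg.Agent.Lib.Helper64.TPPAIRE

/-!
# S5987 piece PAIRE (call by helper41): port of `Helper64.TPPAIRE` to the minus form, all `q`

Two orthogonal invariant nondegenerate blocks `B₁`, `B₂` of finrank `i` (even) killed by the same
irreducible `P`: `M = B₁ ⊔ B₂` contains an invariant totally singular subspace of finrank `i`.
Chevalley–Warning core `Helper64.TPPAIRE.core` (generic quadratic form, all characteristics).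
-/

set_option autoImplicit false

universe u

open scoped Matrix

namespace Cfsg.Agent.Lib.Helper64.TMPAIRE

open Cfsg.Agent.Lib.Helper37.HypStmt (cc IPos)
open Cfsg.Agent.Lib.Helper44.TSStmt (Fac NumTypes)
open Cfsg.Agent.Lib.Helper45.OMiStmt (M Aniso FxM NDegM StabM mem_FxM)
open Cfsg.Agent.Lib.Helper41.TMTwoStmt (TSubM PlusM FixTSM)
open Cfsg.Agent.Lib.Helper41.TMStmt
open Cfsg.Agent.Lib.Helper44.NegPairs (minusQ)

/-- [PAIRE] -/
theorem main (hIPos : IPos.{u}) (hInv : InvDim.{u}) (hOrth : OrthSum.{u}) (hHalf : TsHalf.{u}) :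
    PairE.{u} := by
  intro F _ _ a₀ b₀ hab p _ _ d r _ hr2 hrp heven x hx hxr P hP B₁ B₂ hS1 hS2 hN1 hN2 hF1 hF2 hd1
    hd2 horth hK1 hK2
  classical
  have hipos : 0 < orderOf ((Fintype.card F : ℕ) : ZMod r) := hIPos F p r hrp
  obtain ⟨e, he⟩ := heven
  have hepos : 0 < e := by omega
  have hrodd : Odd r := (Fact.out : r.Prime).eq_two_or_odd'.resolve_left hr2
  obtain ⟨hPm, hPirr, hPdvd⟩ := hP
  have hdegi : P.natDegree = orderOf ((Fintype.card F : ℕ) : ZMod r) := by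
    obtain ⟨n, hp, hcard⟩ := FiniteField.card F p
    have hcop : p.Coprime r :=
      (Nat.coprime_primes (Fact.out : p.Prime) (Fact.out : r.Prime)).2 (Ne.symm hrp)
    have h1 := Polynomial.natDegree_of_dvd_cyclotomic_of_irreducible (K := F) (p := p)
      (f := (n : ℕ)) (n := r) hcard hcop hPdvd hPirr
    rw [h1, ← orderOf_units, ZMod.coe_unitOfCoprime, hcard]
  have hdeg : P.natDegree = 2 * e := by rw [hdegi, he]; omega
  have hc0 : P.coeff 0 ≠ -1 ∨ (2 : F) = 0 := by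
    by_cases h2 : (2 : F) = 0
    · exact Or.inr h2
    · exact Or.inl
        (Cfsg.Agent.Lib.Helper64.TPPAIRE.coeff_zero_ne r hrodd h2 P hPm hPirr hPdvd (by rw [hdeg]; exact even_two_mul e))
  obtain ⟨f, hf⟩ : ∃ f : (M d → F) →ₗ[F] (M d → F),
      f = Matrix.toLin' (x : Matrix (M d) (M d) F) := ⟨_, rfl⟩
  have hfx : ∀ v, f v = (x : Matrix (M d) (M d) F) *ᵥ v := by
    intro v; rw [hf, Matrix.toLin'_apply]
  have hiso : ∀ v, minusQ (d - 1) F a₀ b₀ (f v) = minusQ (d - 1) F a₀ b₀ v := by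
    intro v
    rw [hfx]
    exact hx v v
  have hS1' : ∀ v ∈ B₁, f v ∈ B₁ := by
    intro v hv
    rw [hf]
    exact hS1 (Submodule.mem_map_of_mem hv)
  have hS2' : ∀ v ∈ B₂, f v ∈ B₂ := by
    intro v hv
    rw [hf]
    exact hS2 (Submodule.mem_map_of_mem hv)
  obtain ⟨hNM, hinf, hfinM⟩ := hOrth F a₀ b₀ hab d B₁ B₂ hN1 hN2 horth
  have hStabM : ∀ v ∈ B₁ ⊔ B₂, f v ∈ B₁ ⊔ B₂ := by
    intro v hv
    obtain ⟨u1, hu1, u2, hu2, rfl⟩ := Submodule.mem_sup.1 hv
    rw [map_add]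
    exact Submodule.add_mem _ (Submodule.mem_sup_left (hS1' u1 hu1))
      (Submodule.mem_sup_right (hS2' u2 hu2))
  have hkill : ∀ v ∈ B₁ ⊔ B₂, (Polynomial.aeval f P) v = 0 := by
    intro v hv
    obtain ⟨u1, hu1, u2, hu2, rfl⟩ := Submodule.mem_sup.1 hv
    have e1 := hK1 u1 hu1
    have e2 := hK2 u2 hu2
    rw [← hf] at e1 e2
    rw [map_add, e1, e2, add_zero]
  have hMFx : (B₁ ⊔ B₂) ⊓ FxM (x : Matrix (M d) (M d) F) = ⊥ := by
    rw [eq_bot_iff]
    rintro v ⟨hv, hvF⟩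
    obtain ⟨u1, hu1, u2, hu2, rfl⟩ := Submodule.mem_sup.1 hv
    have hfix : f (u1 + u2) = u1 + u2 := by
      rw [hfx]
      exact (mem_FxM _ _).1 hvF
    rw [map_add] at hfix
    have hz : f u1 - u1 = u2 - f u2 := sub_eq_sub_iff_add_eq_add.2 (by rw [hfix, add_comm])
    have hz1 : f u1 - u1 ∈ B₁ := Submodule.sub_mem _ (hS1' u1 hu1) hu1
    have hz2 : f u1 - u1 ∈ B₂ := by
      rw [hz]; exact Submodule.sub_mem _ hu2 (hS2' u2 hu2)
    have hz0 : f u1 - u1 = 0 := by
      have : f u1 - u1 ∈ B₁ ⊓ B₂ := ⟨hz1, hz2⟩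
      rw [hinf] at this
      exact (Submodule.mem_bot F).1 this
    have hu1F : u1 ∈ B₁ ⊓ FxM (x : Matrix (M d) (M d) F) := by
      refine ⟨hu1, (mem_FxM _ _).2 ?_⟩
      rw [← hfx]
      exact sub_eq_zero.1 hz0
    have hu2F : u2 ∈ B₂ ⊓ FxM (x : Matrix (M d) (M d) F) := by
      refine ⟨hu2, (mem_FxM _ _).2 ?_⟩
      rw [← hfx]
      rw [hz0] at hz
      exact (sub_eq_zero.1 hz.symm).symm
    rw [hF1] at hu1F
    rw [hF2] at hu2F
    rw [(Submodule.mem_bot F).1 hu1F, (Submodule.mem_bot F).1 hu2F, add_zero]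
    exact Submodule.zero_mem _
  have hfinM' : 2 * e < Module.finrank F ↥(B₁ ⊔ B₂) := by
    rw [hfinM, hd1, hd2, he]; omega
  obtain ⟨w, hwM, hw0, hw⟩ := Cfsg.Agent.Lib.Helper64.TPPAIRE.core p (minusQ (d - 1) F a₀ b₀) f hiso (B₁ ⊔ B₂) P hPm e hepos hdeg hc0 hkill hfinM'
  obtain ⟨U, hU⟩ : ∃ U : Submodule F (M d → F),
      U = Submodule.span F (Set.range fun k : ℕ => (f ^ k) w) := ⟨_, rfl⟩
  have hwU : w ∈ U := by
    rw [hU]
    exact Submodule.subset_span ⟨0, by
      show (f ^ 0) w = w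
      rw [pow_zero, Module.End.one_apply]⟩
  have hUM : U ≤ B₁ ⊔ B₂ := by
    rw [hU, Submodule.span_le]
    rintro _ ⟨k, rfl⟩
    show (f ^ k) w ∈ B₁ ⊔ B₂
    induction k with
    | zero => rw [pow_zero, Module.End.one_apply]; exact hwM
    | succ k ih =>
      rw [pow_succ', Module.End.mul_apply]
      exact hStabM _ ih
  have hStabU : StabM (x : Matrix (M d) (M d) F) U := by
    show Submodule.map (Matrix.toLin' (x : Matrix (M d) (M d) F)) U ≤ U
    rw [← hf, hU, Submodule.map_span, Submodule.span_le]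
    rintro _ ⟨_, ⟨k, rfl⟩, rfl⟩
    apply Submodule.subset_span
    exact ⟨k + 1, by
      show (f ^ (k + 1)) w = f ((f ^ k) w)
      rw [pow_succ', Module.End.mul_apply]⟩
  have hfU : ∀ u ∈ U, f u ∈ U := by
    intro u hu
    rw [hf]
    exact hStabU (Submodule.mem_map_of_mem hu)
  have hpolU1 : ∀ b : ℕ, ∀ u ∈ U, QuadraticMap.polar (minusQ (d - 1) F a₀ b₀) u ((f ^ b) w) = 0 := by
    intro b u hu
    rw [hU] at hu
    induction hu using Submodule.span_induction with
    | mem u hu =>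
      obtain ⟨a, rfl⟩ := hu
      exact hw a b
    | zero => simp
    | add u v _ _ hu hv => rw [QuadraticMap.polar_add_left, hu, hv, add_zero]
    | smul c u _ hu => rw [QuadraticMap.polar_smul_left, hu, smul_zero]
  have hpolU : ∀ u ∈ U, ∀ v ∈ U, QuadraticMap.polar (minusQ (d - 1) F a₀ b₀) u v = 0 := by
    intro u hu v hv
    rw [hU] at hv
    induction hv using Submodule.span_induction with
    | mem v hv =>
      obtain ⟨a, rfl⟩ := hv
      exact hpolU1 a u hu
    | zero => simp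
    | add v v' _ _ hv hv' => rw [QuadraticMap.polar_add_right, hv, hv', add_zero]
    | smul c v _ hv => rw [QuadraticMap.polar_smul_right, hv, smul_zero]
  have hUFx : U ⊓ FxM (x : Matrix (M d) (M d) F) = ⊥ :=
    eq_bot_iff.2 (le_trans (inf_le_inf_right _ hUM) hMFx.le)
  -- `f - 1` is bijective on `U`
  have hsurj : ∀ u ∈ U, ∃ u' ∈ U, f u' - u' = u := by
    let g : ↥U →ₗ[F] ↥U := (f - LinearMap.id).restrict (p := U) (q := U) (fun u hu => by
      rw [LinearMap.sub_apply, LinearMap.id_apply]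
      exact Submodule.sub_mem _ (hfU u hu) hu)
    have hginj : Function.Injective g := by
      rw [← LinearMap.ker_eq_bot, eq_bot_iff]
      intro u hu
      rw [LinearMap.mem_ker] at hu
      have h1 : ((g u : ↥U) : M d → F) = 0 := by rw [hu]; rfl
      have h2 : f (u : M d → F) - (u : M d → F) = 0 := h1
      have h3 : (u : M d → F) ∈ U ⊓ FxM (x : Matrix (M d) (M d) F) := by
        refine ⟨u.2, (mem_FxM _ _).2 ?_⟩
        rw [← hfx]
        exact sub_eq_zero.1 h2
      rw [hUFx] at h3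
      rw [Submodule.mem_bot]
      exact Subtype.ext ((Submodule.mem_bot F).1 h3)
    have hgsurj : Function.Surjective g := LinearMap.injective_iff_surjective.1 hginj
    intro u hu
    obtain ⟨u', hu'⟩ := hgsurj ⟨u, hu⟩
    refine ⟨u', u'.2, ?_⟩
    have h1 : ((g u' : ↥U) : M d → F) = u := by rw [hu']
    exact h1
  have hTS : TSubM d F a₀ b₀ U := by
    intro u hu
    obtain ⟨u', hu'U, rfl⟩ := hsurj u hu
    have h1 := hpolU u' hu'U u' hu'U
    have h2 := hpolU (f u') (hfU u' hu'U) u' hu'U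
    rw [QuadraticMap.polar_self, two_smul] at h1
    have h3 : minusQ (d - 1) F a₀ b₀ (f u' - u') = minusQ (d - 1) F a₀ b₀ (f u') + minusQ (d - 1) F a₀ b₀ u'
        - QuadraticMap.polar (minusQ (d - 1) F a₀ b₀) (f u') u' := by
      have h4 : QuadraticMap.polar (minusQ (d - 1) F a₀ b₀) (f u') (-u') =
          - QuadraticMap.polar (minusQ (d - 1) F a₀ b₀) (f u') u' := QuadraticMap.polar_neg_right _ _ _
      have h5 : minusQ (d - 1) F a₀ b₀ (-u') = minusQ (d - 1) F a₀ b₀ u' := QuadraticMap.map_neg _ _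
      unfold QuadraticMap.polar at h4
      rw [← sub_eq_add_neg, h5] at h4
      unfold QuadraticMap.polar
      linear_combination h4
    have h6 : minusQ (d - 1) F a₀ b₀ (f u' - u') = 0 := by
      rw [h3, hiso, h2, h1, sub_zero]
    exact h6
  have hdvd := hInv F a₀ b₀ hab p d r hrp x hxr U hStabU hUFx
  have hle := hHalf F a₀ b₀ hab d (B₁ ⊔ B₂) U hNM hUM hTS
  have hpos : 0 < Module.finrank F ↥U := by
    apply Nat.pos_of_ne_zero
    intro h
    rw [Submodule.finrank_eq_zero] at h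
    rw [h] at hwU
    exact hw0 ((Submodule.mem_bot F).1 hwU)
  refine ⟨U, hUM, hStabU, hTS, ?_⟩
  have h1 := Nat.le_of_dvd hpos hdvd
  rw [hfinM, hd1, hd2] at hle
  omega

end Cfsg.Agent.Lib.Helper64.TMPAIRE
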